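import Cfsg.Agent.Lib.Solv.H2Quad
import Cfsg.Agent.Lib.Solv.HH3
import Cfsg.Agent.Lib.Grp.Frob2
import Cfsg.Agent.Lib.Grp.H12PSolv
import Cfsg.Agent.Lib.Odd.BG2

/-! Thompson's theorem on solvable groups with one class of involutions. -/

set_option autoImplicit false

namespace CA.H2One
open Subgroup Cfsg CA.OQuo CA.BG CA.H12PSolv
open scoped commutatorElement

variable {G : Type*} [Group G] [Finite G]

omit [Finite G] in
theorem nrm {N : Subgroup G} [N.Normal] (A : Subgroup G) : A ≤ 𝓝(N) := by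
  rw [normalizer_eq_top]; exact le_top

/-- an abelian normal section acting faithfully on `V` acts semiregularly -/
theorem semi {V M : Subgroup G} [V.Normal] [M.Normal] (hV : ∀ v ∈ V, ∀ w ∈ V, v * w = w * v)
    (h2 : ∀ v ∈ V, v * v = 1) (ht : ∀ v ∈ V, ∀ w ∈ V, v ≠ 1 → w ≠ 1 → IsConj v w)
    (hM : ∀ a ∈ M, ∀ b ∈ M, ⁅a, b⁆ ∈ 𝓒(V)) {e v : G} (he : e ∈ M) (hv : v ∈ V) (hv1 : v ≠ 1)
    (h : e * v = v * e) : e ∈ 𝓒(V) := by
  have key : ∀ u ∈ V, ∀ w ∈ V, u ≠ 1 → w ≠ 1 → M ⊓ 𝓒₁(u) ≤ M ⊓ 𝓒₁(w) → M ⊓ 𝓒₁(u) = M ⊓ 𝓒₁(w) := by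
    intro u hu w hw h3 h4 h5
    obtain ⟨g, rfl⟩ := isConj_iff.1 (ht u hu w hw h3 h4)
    refine eq_of_le_of_card_ge h5 (le_of_eq ?_)
    rw [← cj_cent1, ← card_cj g (M ⊓ 𝓒₁(u)), cj_inf, cj_of_mem_norm (K := M) (nrm ⊤ (mem_top g))]
  have cj1 : ∀ a ∈ M, ∀ u ∈ V, M ⊓ 𝓒₁(u) ≤ 𝓒₁(a * u * a⁻¹) := fun a ha u hu b hb => by
    have h3 := mem_cent.1 (hM a⁻¹ (inv_mem ha) b hb.1) u hu
    have h4 := mem_cent1.1 hb.2
    rw [mem_cent1]
    calc _ = a * (⁅a⁻¹, b⁆ * (b * u)) * a⁻¹ * (a * b⁻¹ * a⁻¹ * b * (b⁻¹ * a * b * a⁻¹)) := by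
          rw [commutatorElement_def]; group
      _ = a * (⁅a⁻¹, b⁆ * u) * b * a⁻¹ := by rw [h4]; group
      _ = _ := by rw [← h3, commutatorElement_def]; group
  refine mem_cent.2 fun w hw => ?_
  by_contra h3
  have h4 : e ∉ M ⊓ 𝓒₁(w) := fun h5 => h3 (mem_cent1.1 h5.2).symm
  have h5 : e ∈ M ⊓ 𝓒₁(v) := ⟨he, mem_cent1.2 h⟩
  have w1 : w ≠ 1 := by rintro rfl; simp at h3
  have vw : v * w ≠ 1 := fun e => h4 ((mul_left_cancel (e.trans (h2 v hv).symm)).symm ▸ h5)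
  have h6 : ∀ a ∈ M ⊓ 𝓒₁(v * w), a * v = v * a ∧ a * w = w * a := fun a ha => by
    have h7 := mem_cent1.1 ha.2
    have e1 : v⁻¹ * (a * v * a⁻¹) = w * (a * w * a⁻¹)⁻¹ := by
      calc _ = v⁻¹ * (a * (v * w)) * a⁻¹ * (a * w * a⁻¹)⁻¹ := by group
        _ = _ := by rw [h7]; group
    have d1 : v⁻¹ * (a * v * a⁻¹) = 1 := by
      by_contra h8
      have dV : v⁻¹ * (a * v * a⁻¹) ∈ V := mul_mem (inv_mem hv) (Normal.conj_mem inferInstance v hv a)
      have k1 := key v hv _ dV hv1 h8 fun b hb => ⟨hb.1, mem_cent1_symm.1 (mul_mem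
        (inv_mem (mem_cent1_symm.1 hb.2)) (mem_cent1_symm.1 (cj1 a ha.1 v hv hb)))⟩
      have k2 := key w hw _ dV w1 h8 fun b hb => ⟨hb.1, mem_cent1_symm.1 (e1 ▸ mul_mem
        (mem_cent1_symm.1 hb.2) (inv_mem (mem_cent1_symm.1 (cj1 a ha.1 w hw hb))))⟩
      exact h4 (k2 ▸ k1 ▸ h5)
    rw [d1, eq_comm, mul_inv_eq_one] at e1
    exact ⟨mul_inv_eq_iff_eq_mul.1 (inv_mul_eq_one.1 d1).symm, mul_inv_eq_iff_eq_mul.1 e1.symm⟩
  have k1 := key _ (mul_mem hv hw) v hv vw hv1 fun a ha => ⟨ha.1, mem_cent1.2 (h6 a ha).1⟩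
  have k2 := key _ (mul_mem hv hw) w hw vw w1 fun a ha => ⟨ha.1, mem_cent1.2 (h6 a ha).2⟩
  exact h4 (k2 ▸ k1.symm ▸ h5)

/-- odd order subgroups centralizing the involutions are cyclic -/
theorem cyc {P V R : Subgroup G} [P.Normal] [V.Normal] (hP : IsPi {2} P) (hC : 𝓒(P) ≤ P) (hVP : V ≤ 𝓩(P))
    (hV : ∀ x, x ^ 2 = 1 ↔ x ∈ V) (h0 : V ≠ ⊥) (ht : ∀ v ∈ V, ∀ w ∈ V, v ≠ 1 → w ≠ 1 → IsConj v w)
    {r : ℕ} (hr : r.Prime) (h2 : r ≠ 2) (hR : IsPi {r} R) (hRV : R ≤ 𝓒(V)) : IsCyclic R := by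
  haveI := Fact.mk hr
  obtain ⟨K, hK, k1, k2, k3⟩ := exists_critical Nat.prime_two hP
  haveI : K.Normal := normal_of_top_le_norm (hK.le_norm (nrm ⊤))
  have hVK : V ≤ K := (le_inf (hVP.trans inf_le_left) ((hVP.trans inf_le_right).trans (cent_anti hK.le))).trans k3
  have sq : ∀ a ∈ K, ∀ b ∈ K, (a * b) ^ 2 = a ^ 2 * b ^ 2 * ⁅b⁻¹, a⁻¹⁆ ∧ ⁅b⁻¹, a⁻¹⁆ ∈ V := fun a ha b hb => by
    have c1 := mem_cent.1 (k2 (commutator_mem_commutator (hK.le (inv_mem hb)) (inv_mem ha))).2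
    refine ⟨?_, (hV _).1 ?_⟩
    · calc _ = a * (a * b * ⁅b⁻¹, a⁻¹⁆) * b := by rw [commutatorElement_def, pow_two]; group
        _ = _ := by rw [mul_assoc, mul_assoc (a * b), ← c1 b hb]; simp only [pow_two, mul_assoc]
    · have c2 := mem_cent.1 (k1 b hb).2 a ha
      calc _ = ⁅b⁻¹, a⁻¹⁆ * b⁻¹ * a⁻¹ * b * a := by rw [pow_two]; nth_rw 2 [commutatorElement_def]; group
        _ = b⁻¹ * (b⁻¹ * a⁻¹ * (b ^ 2 * a)) * a⁻¹ * (a * (a⁻¹ * b⁻¹ * a * a⁻¹ * b * a)) := by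
          rw [← c1 _ (inv_mem hb), commutatorElement_def, pow_two]; group
        _ = b⁻¹ * b⁻¹ * (a⁻¹ * (b ^ 2 * a)) := by group
        _ = 1 := by rw [← c2]; group
  let W : Subgroup G :=
    { carrier := {w | w ∈ K ∧ w ^ 2 ∈ V}
      one_mem' := ⟨one_mem _, by simp⟩
      mul_mem' := fun {a b} ha hb => ⟨mul_mem ha.1 hb.1, by
        rw [(sq a ha.1 b hb.1).1]; exact mul_mem (mul_mem ha.2 hb.2) (sq a ha.1 b hb.1).2⟩
      inv_mem' := fun {a} ha => ⟨inv_mem ha.1, by rw [inv_pow]; exact inv_mem ha.2⟩ }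
  haveI : W.Normal := ⟨fun a ha g => ⟨Normal.conj_mem inferInstance _ ha.1 g, by
    rw [conj_pow]; exact Normal.conj_mem inferInstance _ ha.2 g⟩⟩
  have hVW : V ≤ W := fun v hv => ⟨hVK hv, pow_mem hv 2⟩
  have hWK : W ≤ K := fun w hw => hw.1
  have hR' : IsPi {2}ᶜ R := hR.sub (ne_mem_compl h2)
  have main : ∀ x ∈ R, x ≠ 1 → (∃ w ∈ W, w ∉ V) ∧ ∀ w ∈ W, x * w * x⁻¹ * w⁻¹ ∈ V → w ∈ V := fun x hx x1 => by
    have hX : IsPi {2}ᶜ (zpowers x) := hR'.of_le (zpowers_le.2 hx)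
    have cop : ∀ {A : Subgroup G}, A ≤ P → (♯A).Coprime ♯(zpowers x) := fun h => (hP.of_le h).coprime hX
    have xV : zpowers x ≤ 𝓒(V) := (zpowers_le.2 hx).trans hRV
    have cm : ∀ {A B : Subgroup G} [B.Normal], (∀ w ∈ A, x * w * x⁻¹ * w⁻¹ ∈ B) → ⁅A, zpowers x⁆ ≤ B := by
      intro A B _ h
      rw [← QuotientGroup.ker_mk' B, ← Subgroup.map_eq_bot_iff, map_commutator, MonoidHom.map_zpowers,
        commutator_eq_bot_iff_le_centralizer, zpowers_eq_closure, centralizer_closure]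
      rintro _ ⟨w, hw, rfl⟩ _ rfl
      rw [← commutatorElement_eq_one_iff_mul_comm, ← map_commutatorElement]
      exact (QuotientGroup.eq_one_iff _).2 (h w hw)
    have h1 : ¬ ∀ w ∈ W, x * w * x⁻¹ * w⁻¹ ∈ V := fun h => by
      have c1 := coprime_cent_of_comm_le (cop (hVP.trans inf_le_left)) xV (cm h)
      have c2 : zpowers x ≤ 𝓒(𝓩(K)) := coprime_abelian_faithful_Ohm1 ((nrm _).trans (norm_center K))
        (cop (inf_le_left.trans hK.le)) (comm_center K) (hP.of_le (inf_le_left.trans hK.le))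
        (xV.trans (cent_anti ((closure_le _).2 fun y hy => (hV y).1 hy.2)))
      have c3 := coprime_cent_of_comm_le (K := K) (cop (hWK.trans hK.le)) c1 (cm fun w hw => by
        have m1 : x * w * x⁻¹ ∈ K := Normal.conj_mem inferInstance _ hw x
        refine ⟨mul_mem m1 (inv_mem hw), ?_⟩
        rw [(sq _ m1 _ (inv_mem hw)).1, conj_pow, ← mem_cent.1 (c2 (mem_zpowers x)) _ (k1 w hw),
          mul_inv_cancel_right, inv_pow, mul_inv_cancel, one_mul]
        exact (sq _ m1 _ (inv_mem hw)).2)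
      have c4 := hC (cop_cent_of_selfcent (nrm _) (cop le_rfl) hK.normal k3 c3 (mem_zpowers x))
      exact x1 (mem_bot.1 ((hP.inf_eq_bot hX).le ⟨c4, mem_zpowers x⟩))
    refine ⟨by
      by_contra! h
      exact h1 fun w hw => mul_mem (Normal.conj_mem inferInstance _ (h w hw) x) (inv_mem (h w hw)), ?_⟩
    have := CA.H2Quad.quadW (V.subgroupOf W) (fun v hv => mem_center_iff.2 fun w =>
        Subtype.ext (mem_cent.1 (hVP hv).2 w (hK.le w.2.1)))
      (fun e => h0 ((subgroupOf_eq_bot.1 e).eq_bot_of_le hVW)) (fun w => w.2.2)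
      (fun w => Subtype.ext_iff.trans (hV w)) (fun v hv w hw v1 w1 => by
        obtain ⟨g, hg⟩ := isConj_iff.1 (ht v hv w hw (fun e => v1 (Subtype.ext e)) fun e => w1 (Subtype.ext e))
        refine ⟨MulAut.conjNormal g, Subtype.ext hg, fun y => ⟨fun h => ?_, fun h =>
          Normal.conj_mem (H := V) inferInstance (y : G) h g⟩⟩
        have h' : g * y * g⁻¹ ∈ V := h
        show (y : G) ∈ V
        simpa [mul_assoc] using Normal.conj_mem (H := V) inferInstance _ h' g⁻¹)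
      (MulAut.conjNormal x) (fun v hv => Subtype.ext (by
        rw [MulAut.conjNormal_apply, ← mem_cent.1 (hRV hx) (v : G) hv, mul_inv_cancel_right]))
      (Nat.coprime_two_right.1 ((piNat_compl_iff_coprime Nat.prime_two).1
        ((hR'.orderOf hx).of_dvd (orderOf_map_dvd _ _))))
    exact fun w hw => (this.resolve_left fun h => h1 fun w hw => h ⟨w, hw⟩) ⟨w, hw⟩
  rcases R.bot_or_exists_ne_one with rfl | ⟨x, hx, x1⟩
  · infer_instance
  let ρ := QuotientGroup.mk' V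
  have h3 := CA.Frob2.Semireg.isCyclic_or_quaternion (K := W.map ρ) (P := R.map ρ) (p := r)
    (CA.Frob2.semireg_iff.2 (by
      rintro _ ⟨y, hy, rfl⟩ y1 _ ⟨w, hw, rfl⟩ e
      refine (QuotientGroup.eq_one_iff w).2 ((main y hy (by rintro rfl; exact y1 (map_one ρ))).2 w hw
        ((QuotientGroup.eq_one_iff _).1 ?_))
      show ρ _ = 1
      rw [map_mul, map_mul, map_mul, e, map_inv, map_inv]; group))
    ((map_mono (nrm R)).trans (le_normalizer_map ρ)) (fun e => by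
      obtain ⟨w, hw, hw'⟩ := (main x hx x1).1
      exact hw' ((QuotientGroup.eq_one_iff w).1 (mem_bot.1 (e ▸ mem_map_of_mem ρ hw))))
    ((hR.isPGroup hr).map ρ)
  haveI := h3.resolve_right fun h => h2 h.1
  exact isCyclic_of_injective (ρ.subgroupMap R) ((injective_iff_map_eq_one _).2 fun y hy => Subtype.ext
    (mem_bot.1 (((hP.of_le (hVP.trans inf_le_left)).inf_eq_bot hR').le
      ⟨(QuotientGroup.eq_one_iff _).1 (congrArg Subtype.val hy), y.2⟩)))

theorem syl_le_core (hs : Group.IsSolvable G) (hO : pPrimeCore 2 G = ⊥) {S : Subgroup G} (hS : IsPi {2} S)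
    {x y : G} (hxy : x ≠ y) (x1 : x ≠ 1) (x2 : x ^ 2 = 1) (y1 : y ≠ 1) (y2 : y ^ 2 = 1)
    (hc : ∀ x y : G, x ≠ 1 → x ^ 2 = 1 → y ≠ 1 → y ^ 2 = 1 → IsConj x y) : S ≤ pCore 2 G := by
  haveI := Fact.mk Nat.prime_two
  have p2 := Nat.prime_two
  have hC := centralizer_pCore_le (psolv_of_solvable (p := 2) (G := G)) hO
  have hP : IsPi {2} (pCore 2 G) := isPi_of_isPGroup p2 CA.Core.isPGroup_pCore
  set P := pCore 2 G with hPd
  obtain ⟨Z, hZ, hZ2⟩ := (hP.of_le (inf_le_left : 𝓩(P) ≤ P)).exists_card_eq (hP.center_ne_bot fun e =>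
    x1 (mem_bot.1 (e ▸ hC (by rw [e, cent_bot]; exact mem_top x))))
  obtain ⟨z, hz, z1⟩ := Z.bot_or_exists_ne_one.resolve_left (by rintro rfl; simp at hZ2)
  haveI : (𝓩(P) : Subgroup G).Normal := normal_of_top_le_norm ((nrm ⊤).trans (norm_center P))
  have hI : ∀ t, t ^ 2 = 1 → t ∈ 𝓩(P) := fun t ht => by
    by_cases e : t = 1
    · rw [e]; exact one_mem _
    obtain ⟨g, rfl⟩ := isConj_iff.1 (hc z t z1 (by
      rw [← hZ2]; exact congrArg Subtype.val (pow_card_eq_one' (x := (⟨z, hz⟩ : Z)))) e ht)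
    exact Normal.conj_mem inferInstance _ (hZ hz) g
  have hm : ∀ a b : G, a ^ 2 = 1 → b ^ 2 = 1 → a * b = b * a := fun a b ha hb =>
    mem_cent.1 (hI b hb).2 a (hI a ha).1
  let V : Subgroup G :=
    { carrier := {t | t ^ 2 = 1}
      one_mem' := one_pow 2
      mul_mem' := fun {a b} ha hb => by
        show _ = 1
        rw [(show Commute a b from hm a b ha hb).mul_pow, ha, hb, one_mul]
      inv_mem' := fun {a} ha => by show _ = 1; rw [inv_pow, ha, inv_one] }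
  haveI : V.Normal := ⟨fun a ha g => by show _ = 1; rw [conj_pow, ha, mul_one, mul_inv_cancel]⟩
  have hVP : V ≤ 𝓩(P) := hI
  have hV2 : IsPi {2} V := hP.of_le (hVP.trans inf_le_left)
  have V0 : V ≠ ⊥ := fun e => x1 (mem_bot.1 (e ▸ (x2 : x ∈ V)))
  have ht : ∀ v ∈ V, ∀ w ∈ V, v ≠ 1 → w ≠ 1 → IsConj v w := fun v hv w hw a b => hc v w a hv b hw
  set C := 𝓒(V) with hCd
  haveI : C.Normal := normal_of_top_le_norm (norm_cent (nrm ⊤))
  let π := QuotientGroup.mk' C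
  obtain ⟨E, -, hE⟩ := exists_minNormal (H := (⊤ : Subgroup (G ⧸ C))) (N := ⊤) (nrm _) (fun e => by
    obtain ⟨g, rfl⟩ := isConj_iff.1 (hc x y x1 x2 y1 y2)
    have : g ∈ C := (QuotientGroup.eq_one_iff g).1 (mem_bot.1 (e ▸ mem_top (π g)))
    exact hxy (by rw [← mem_cent.1 this x x2, mul_inv_cancel_right]))
  obtain ⟨s, hs', hE'⟩ := hE.elem inferInstance
  haveI : E.Normal := normal_of_top_le_norm hE.2.1
  obtain ⟨Y, hY⟩ := syl_exists hs' (E.comap π)
  have hYE : Y.map π = E := by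
    have := CA.HH.hall_map hY π
    rw [map_comap_eq_self_of_surjective (QuotientGroup.mk'_surjective _)] at this
    exact this.eq_self (isPi_of_elem hs' hE')
  obtain ⟨e, he, he'⟩ : ∃ e ∈ Y, e ∉ C := by
    by_contra! h
    exact hE.1 (hYE ▸ (Subgroup.map_eq_bot_iff _).2 (by rw [QuotientGroup.ker_mk']; exact h))
  have fpf : ∀ v ∈ V, e * v = v * e → v = 1 := fun v hv h => by
    by_contra v1
    exact he' (semi (V := V) (M := E.comap π) (fun a ha b hb => hm a b ha hb) (fun v hv => by rw [← pow_two]; exact hv) ht (fun a ha b hb =>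
      (QuotientGroup.eq_one_iff _).1 (by
        show π _ = 1
        rw [map_commutatorElement, commutatorElement_eq_one_iff_mul_comm]
        exact congrArg Subtype.val (hE'.1.is_comm.comm ⟨_, ha⟩ ⟨_, hb⟩))) (hY.le he) hv v1 h)
  have s2 : s ≠ 2 := by
    rintro rfl
    obtain ⟨v, hv, v1⟩ := (bot_or_exists_ne_one _).resolve_left (hY.pi.meet_cent hV2 (nrm _) V0)
    exact v1 (fpf v hv.1 (mem_cent.1 hv.2 e he))
  have hN : IsPi {2}ᶜ 𝓝(Y) := (isPi_compl_iff p2).2 fun h => by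
    obtain ⟨t, h1⟩ := exists_prime_orderOf_dvd_card' 2 h
    rw [← orderOf_coe] at h1
    have t2 : (t : G) ∈ V := by show _ = 1; rw [← h1, pow_orderOf_eq_one]
    have h3 : ⁅(t : G), e⁆ ∈ V ⊓ Y := mem_inf.2 ⟨by
      rw [commutatorElement_def, mul_assoc, mul_assoc, ← mul_assoc e]
      exact mul_mem t2 (Normal.conj_mem inferInstance _ (inv_mem t2) e),
      mul_mem ((mem_normalizer_iff.1 t.2 e).1 he) (inv_mem he)⟩
    rw [hV2.inf_eq_bot (hY.pi.sub (ne_mem_compl s2)), mem_bot, commutatorElement_eq_one_iff_mul_comm] at h3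
    rw [fpf t t2 h3.symm, orderOf_one] at h1
    exact absurd h1 (by norm_num)
  have big : ∀ (D : Subgroup G) [D.Normal] [(D ⊔ Y).Normal], S ≤ D := fun D _ _ => by
    have h1 := (hY.of_le (le_inf hY.le le_sup_right) (inf_le_left (b := D ⊔ Y))).frattini_sup inferInstance
      le_top (nrm ⊤)
    have h2 : 𝓝(Y) ⊔ D = ⊤ := top_le_iff.1 (h1.ge.trans (sup_le (inf_le_right.trans
      (sup_le le_sup_right (le_normalizer.trans le_sup_left))) (inf_le_right.trans le_sup_left)))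
    refine hS.le_of_relIndex le_top (nrm ⊤) ?_
    rw [← h2, relIndex_sup_norm (nrm _)]
    exact hN.relIndex D
  have hSC : S ≤ C := by
    haveI : (C ⊔ Y).Normal := by
      rw [show C ⊔ Y = E.comap π by rw [← hYE, comap_map_eq, QuotientGroup.ker_mk', sup_comm]]
      infer_instance
    exact big C
  have hSD : S ≤ ⁅(⊤ : Subgroup G), (⊤ : Subgroup G)⁆ := by
    haveI : (⁅(⊤ : Subgroup G), (⊤ : Subgroup G)⁆ ⊔ Y).Normal := normal_of_top_le_norm (norm_of_comm_le_left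
      ((commutator_mono le_top le_top).trans le_sup_left))
    exact big _
  let ρ := QuotientGroup.mk' P
  have hρ := QuotientGroup.mk'_surjective P
  have hPC : P ≤ C := cent_symm (hVP.trans inf_le_right)
  haveI : (C.map ρ).Normal := Normal.map inferInstance ρ hρ
  have o2 : 𝓞({2}, C.map ρ) = ⊥ := le_bot_iff.1 ((core_le_core le_top (nrm ⊤)).trans
    ((core_p_top p2).trans (CA.HH.pcore_quot p2)).le)
  have h1 : 𝓕(C.map ρ) ≤ 𝓒(S.map ρ) := fit_le_of_core fun r hr _ => by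
    by_cases r2 : r = 2
    · rw [r2, o2]; exact bot_le
    obtain ⟨R, r1, r3⟩ := CA.HH.exists_lift hr hρ (core_pi {r} (C.map ρ))
    have r4 : R ≤ C := (le_comap_map ρ R).trans ((comap_mono (r3.le.trans (core_le _ _))).trans (by
      rw [comap_map_eq, QuotientGroup.ker_mk', sup_eq_left.2 hPC]))
    haveI := cyc hP hC hVP (fun _ => Iff.rfl) V0 ht hr r2 r1 r4
    refine cent_symm (((map_mono hSD).trans ?_).trans (der_cent_cyclic (A := ⊤) ?_ (norm_core _ (nrm ⊤))))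
    · rw [map_commutator]; exact commutator_mono le_top le_top
    · rw [← r3]; exact isCyclic_of_surjective _ (ρ.subgroupMap_surjective R)
  have h2 := IsPi.le_core_of_le_fit (PiNat.of_dvd hS (card_map_dvd S ρ))
    ((le_inf (map_mono hSC) (cent_symm h1)).trans (cent_fit_le inferInstance))
  rwa [o2, le_bot_iff, Subgroup.map_eq_bot_iff, QuotientGroup.ker_mk'] at h2

end CA.H2One
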