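import Cfsg.Agent.Lib.Solv.HH8
import Cfsg.Agent.Lib.Loc.H6KS2
import Cfsg.Agent.Lib.Grp.H13Ext

/-! A Baer–Suzuki type criterion for membership in `O_{p',p}` of a `p`-soluble group. -/

set_option autoImplicit false

namespace CA.H2Pow
open Subgroup Cfsg CA.OQuo CA.BG CA.H12PSolv
open scoped commutatorElement

variable {G G' : Type*} [Group G] [Group G'] {p : ℕ}

/-- `z` lies in a `K`-invariant subgroup which is a `p`-group modulo a `K`-invariant `p'`-group -/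
def In (p : ℕ) (K : Subgroup G) (z : G) : Prop :=
  ∃ N M : Subgroup G, K ≤ 𝓝(N) ∧ K ≤ 𝓝(M) ∧ IsPi {p}ᶜ N ∧ z ∈ M ∧ ∀ m ∈ M, ∃ n, m ^ p ^ n ∈ N

theorem In.mono {K L : Subgroup G} {z : G} (h : In p K z) (hL : L ≤ K) : In p L z :=
  let ⟨N, M, h1, h2, h3⟩ := h
  ⟨N, M, hL.trans h1, hL.trans h2, h3⟩

theorem In.map [Finite G] {K : Subgroup G} {z : G} (h : In p K z) (f : G →* G') : In p (K.map f) (f z) := by
  obtain ⟨N, M, h1, h2, h3, h4, h5⟩ := h
  refine ⟨N.map f, M.map f, (map_mono h1).trans (le_normalizer_map f), (map_mono h2).trans (le_normalizer_map f),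
    PiNat.of_dvd h3 (card_map_dvd N f), mem_map_of_mem f h4, ?_⟩
  rintro _ ⟨m, hm, rfl⟩
  obtain ⟨n, hn⟩ := h5 m hm
  exact ⟨n, _, hn, map_pow f m _⟩

theorem In.comap [Finite G] {K : Subgroup G'} {z : G} (f : G →* G') (hk : IsPi {p}ᶜ f.ker)
    (h : In p K (f z)) : In p (K.comap f) z := by
  obtain ⟨N, M, h1, h2, h3, h4, h5⟩ := h
  refine ⟨N.comap f, M.comap f, (comap_mono h1).trans (le_normalizer_comap f),
    (comap_mono h2).trans (le_normalizer_comap f), isPi_of_orderOf fun x hx => ?_, h4, fun m hm => ?_⟩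
  · have h6 : x ^ orderOf (f x) ∈ f.ker := by rw [MonoidHom.mem_ker, map_pow, pow_orderOf_eq_one]
    refine ((h3.orderOf hx).mul (hk.orderOf h6)).of_dvd (orderOf_dvd_of_pow_eq_one ?_)
    rw [pow_mul, pow_orderOf_eq_one]
  · obtain ⟨n, hn⟩ := h5 _ hm
    exact ⟨n, by rwa [mem_comap, map_pow]⟩

theorem mem_of_pow (hp : p.Prime) {N : Subgroup G} {m : G} {n : ℕ} (h : m ^ p ^ n ∈ N)
    (h1 : PiNat {p}ᶜ (orderOf m)) : m ∈ N := by
  obtain ⟨k, hk⟩ := exists_pow_eq_self_of_coprime (((piNat_compl_iff_coprime hp).1 h1).symm.pow_left n)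
  exact hk ▸ pow_mem h k

theorem eq_one_of {x : G} (h1 : PiNat {p} (orderOf x)) (h2 : PiNat {p}ᶜ (orderOf x)) : x = 1 :=
  orderOf_eq_one_iff.1 (h1.eq_one h2)

variable [Finite G] [hp : Fact p.Prime]

theorem pi_core : IsPi {p} (pCore p G) := isPi_of_isPGroup hp.out CA.Core.isPGroup_pCore

theorem pi_core' : IsPi {p}ᶜ (pPrimeCore p G) :=
  (isPi_compl_iff_coprime hp.out).2 CA.Core.coprime_pPrimeCore

theorem mem_core (hs : IsPSolvable p G) (hO : pPrimeCore p G = ⊥) {z : G} (hz : PiNat {p} (orderOf z))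
    (h : ∀ u, In p (closure {z, u}) z) : z ∈ pCore p G := by
  by_contra hzR
  set R := pCore p G with hR
  let π := QuotientGroup.mk' R
  have hπ : ∀ {x}, π x = 1 ↔ x ∈ R := fun {x} => QuotientGroup.eq_one_iff x
  let H := (pPrimeCore p (G ⧸ R)).comap π
  have F1 : ∀ x ∈ H, PiNat {p} (orderOf x) → x ∈ R := fun x hx h1 =>
    hπ.1 (eq_one_of (h1.of_dvd (orderOf_map_dvd π x)) (pi_core'.orderOf hx))
  have hRH : R ≤ H := fun x hx => by
    show π x ∈ pPrimeCore p (G ⧸ R)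
    rw [hπ.2 hx]; exact one_mem _
  obtain ⟨X, ⟨hRX, hXH, hzX, y, hy, hyz⟩, hmin⟩ := (Set.toFinite {X : Subgroup G | R ≤ X ∧ X ≤ H ∧
      z ∈ 𝓝(X) ∧ ∃ x ∈ X, ⁅x, z⁆ ∉ R}).exists_minimal ⟨H, hRH, le_rfl, by
    rw [normalizer_eq_top]; exact mem_top _, by
    by_contra! h1
    refine hzR (F1 z (CA.H6KS2.cent_pPrimeCore_le (psolv_quotient hs _) (CA.HH.pcore_quot hp.out) ?_) hz)
    intro x hx
    obtain ⟨x, rfl⟩ := QuotientGroup.mk'_surjective R x
    have := hπ.2 (h1 x hx)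
    rwa [map_commutatorElement, commutatorElement_eq_one_iff_mul_comm] at this⟩
  have cX : ∀ u ∈ X, ⁅u, z⁆ ∈ X := fun u hu => by
    rw [commutatorElement_def, mul_assoc, mul_assoc, ← mul_assoc z]
    exact mul_mem hu ((mem_normalizer_iff.1 hzX _).1 (inv_mem hu))
  have F3 : ∀ u ∈ X, ⁅u, z⁆ ∉ R → ∃ Q : Subgroup G, IsPi {p}ᶜ Q ∧ Q ⊔ R = X ∧ z ∈ 𝓝(Q) ∧ u ∈ 𝓝(Q) := by
    intro u hu huz
    obtain ⟨N, M, h1, h2, h3, h4, h5⟩ := h u
    have z1 : z ∈ closure {z, u} := subset_closure (by simp)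
    have u1 : u ∈ closure {z, u} := subset_closure (by simp)
    have zQ : z ∈ 𝓝(N ⊓ X) := inf_normalizer_le_normalizer_inf ⟨h1 z1, hzX⟩
    refine ⟨N ⊓ X, h3.of_le inf_le_left, ?_, zQ, inf_normalizer_le_normalizer_inf ⟨h1 u1, le_normalizer hu⟩⟩
    have hle : N ⊓ X ⊔ R ≤ X := sup_le inf_le_right hRX
    refine le_antisymm hle (hmin ⟨le_sup_right, hle.trans hXH, ?_, ?_⟩ hle)
    · exact norm_sup (A := zpowers z) (zpowers_le.2 zQ) (by rw [normalizer_eq_top]; exact le_top) (mem_zpowers z)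
    obtain ⟨a, b, ha, hb, e, ⟨k, hk⟩, ho⟩ := CA.PRes.exists_p_part (p := p) ⁅u, z⁆
    have cM : ⁅u, z⁆ ∈ M := mul_mem ((mem_normalizer_iff.1 (h2 u1) _).1 h4) (inv_mem h4)
    obtain ⟨n, hn⟩ := h5 b (zpowers_le.2 cM hb)
    refine ⟨b, mem_sup_left ⟨mem_of_pow hp.out hn ((piNat_compl_iff_coprime hp.out).2 ho),
      zpowers_le.2 (cX u hu) hb⟩, fun h6 => huz (hπ.1 ?_)⟩
    have e1 : π ⁅u, z⁆ = π b := by
      rw [show π ⁅u, z⁆ = π a * π b by rw [← map_mul, ← e], hπ.2 (F1 a (hXH (zpowers_le.2 (cX u hu) ha)) ((piNat_pow hp.out k).of_dvd (orderOf_dvd_of_pow_eq_one hk))), one_mul]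
    have e2 : Commute (π ⁅u, z⁆) (π z) := by
      rw [e1, ← commutatorElement_eq_one_iff_commute, ← map_commutatorElement, hπ]; exact h6
    refine eq_one_of ((hz.of_dvd (orderOf_map_dvd π z)).of_dvd (orderOf_dvd_of_pow_eq_one ?_))
      (pi_core'.orderOf (hXH (cX u hu)))
    have e3 := e2.mul_pow (orderOf (π z))
    rw [pow_orderOf_eq_one, mul_one] at e3
    rw [← e3, map_commutatorElement, commutatorElement_def, inv_mul_cancel_right, conj_pow,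
      pow_orderOf_eq_one, mul_one, mul_inv_cancel]
  obtain ⟨Q, q1, q2, q3, -⟩ := F3 y hy hyz
  obtain ⟨y0, hy0, r0, hr0, rfl⟩ := mem_sup_of_normal_right.1 (q2.ge hy)
  have hc : ∀ r ∈ R, ⁅y0 * r, z⁆ ∉ R := fun r hr h1 => hyz (by
    rw [← hπ, map_commutatorElement, map_mul] at h1 ⊢
    rw [hπ.2 hr] at h1
    rwa [hπ.2 hr0])
  have nR : ∀ S : Subgroup G, S ≤ 𝓝(R) := fun S => by rw [normalizer_eq_top]; exact le_top
  have cop : ∀ {S : Subgroup G}, IsPi {p}ᶜ S → (♯S).Coprime ♯R := fun h => PiNat.coprime' h pi_core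
  have cj1 : ∀ r ∈ R, ∀ g, g * r * g⁻¹ ∈ R := fun r hr g => Normal.conj_mem inferInstance r hr g
  have hT : {k : G | k ∈ R ∧ k * z * k⁻¹ ∈ 𝓝(Q)} = R := by
    refine Set.eq_of_subset_of_ncard_le (fun k hk => hk.1) ((Set.ncard_le_ncard (fun r hr => ?_)).trans
      (Set.ncard_image_le (f := fun k => y0⁻¹ * ((k⁻¹ : G) : G ⧸ (R ⊓ 𝓝(Q))).out * y0 * k)))
    obtain ⟨Q', p1, p2, p3, p4⟩ := F3 _ (mul_mem (q2.le (mem_sup_left hy0)) (hRX hr)) (hc r hr)
    obtain ⟨k, hk, h1⟩ := CA.Coprime.exists_conj_mem (nR Q) (cop q1) (le_sup_left.trans (p2.trans q2.symm).le)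
      (cop p1) (.inr (.inr (pi_core.isSolvable hp.out)))
    have h2 : cj k Q' = Q := by
      refine eq_of_le_of_card_ge ?_ ?_
      · rintro _ ⟨b, hb, rfl⟩; exact h1 b hb
      · rw [card_cj]
        refine (Nat.eq_of_mul_eq_mul_right (Nat.card_pos (α := R)) ?_).le
        rw [← CA.Coprime.card_sup_of_disjoint (nR Q) (disjoint_iff.2 (pi_core.inf_eq_bot q1)),
          ← CA.Coprime.card_sup_of_disjoint (nR Q') (disjoint_iff.2 (pi_core.inf_eq_bot p1)), p2, q2]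
    have h3 : ∀ g ∈ 𝓝(Q'), k * g * k⁻¹ ∈ 𝓝(Q) := fun g hg => by
      rw [← h2, ← cj_norm]; exact ⟨g, hg, rfl⟩
    obtain ⟨d, hd⟩ := QuotientGroup.mk_out_eq_mul (R ⊓ 𝓝(Q)) k⁻¹
    have d1 := (mem_inf.1 d.2).1
    have d2 := (mem_inf.1 d.2).2
    have h4 : y0⁻¹ * ((d : G)⁻¹ * k) * y0 * r * ((d : G)⁻¹ * k)⁻¹ ∈ R ⊓ 𝓝(Q) := by
      refine mem_inf.2 ⟨mul_mem (mul_mem ?_ hr) (inv_mem (mul_mem (inv_mem d1) hk)), ?_⟩
      · simpa using cj1 _ (mul_mem (inv_mem d1) hk) y0⁻¹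
      · have := mul_mem (inv_mem (le_normalizer hy0)) (mul_mem (mul_mem (inv_mem d2) (h3 _ p4)) d2)
        convert this using 1; group
    generalize hw : y0⁻¹ * ((d : G)⁻¹ * k) * y0 * r * ((d : G)⁻¹ * k)⁻¹ = w at h4
    refine ⟨w * ((d : G)⁻¹ * k), ⟨mul_mem (mem_inf.1 h4).1 (mul_mem (inv_mem d1) hk), ?_⟩, ?_⟩
    · have := mul_mem (mul_mem (mul_mem (mem_inf.1 h4).2 (inv_mem d2)) (h3 _ p3)) (inv_mem (mul_mem (mem_inf.1 h4).2 (inv_mem d2)))
      convert this using 1; group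
    · have e : (((w * ((d : G)⁻¹ * k))⁻¹ : G) : G ⧸ (R ⊓ 𝓝(Q))) = (k⁻¹ : G) := QuotientGroup.eq.2 (by
        convert mul_mem h4 (inv_mem d.2) using 1; group)
      simp only
      rw [e, hd, ← hw]; group
  have hT' : ∀ r ∈ R, r * z * r⁻¹ ∈ 𝓝(Q) := fun r hr => (hT.ge hr).2
  have cQ : ⁅y0, z⁆ ∈ Q := by
    rw [commutatorElement_def, mul_assoc, mul_assoc, ← mul_assoc z]
    exact mul_mem hy0 ((mem_normalizer_iff.1 q3 _).1 (inv_mem hy0))
  refine hc 1 (one_mem _) (centralizer_pCore_le hs hO fun r hr => ?_)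
  rw [mul_one]
  have h1 : r * ⁅y0, z⁆ * r⁻¹ ∈ 𝓝(Q) := by
    have := mul_mem (mul_mem (mul_mem (le_normalizer hy0) (hT' _ (cj1 r hr y0⁻¹))) (inv_mem (le_normalizer hy0)))
      (inv_mem (hT' r hr))
    convert this using 1
    rw [commutatorElement_def]; group
  generalize ⁅y0, z⁆ = c at cQ h1
  have h2 : r * c * r⁻¹ * c⁻¹ ∈ R := by
    have := mul_mem hr (cj1 _ (inv_mem hr) c)
    convert this using 1; group
  have h3 : r * c * r⁻¹ * c⁻¹ ∈ 𝓝(Q) := mul_mem h1 (inv_mem (le_normalizer cQ))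
  generalize hd : r * c * r⁻¹ * c⁻¹ = d at h2 h3
  have h4 : Commute d c := by
    have : d * c * d⁻¹ * c⁻¹ ∈ R ⊓ Q := mem_inf.2 ⟨by
      have := mul_mem h2 (cj1 _ (inv_mem h2) c)
      convert this using 1; group, mul_mem ((mem_normalizer_iff.1 h3 _).1 cQ) (inv_mem cQ)⟩
    rw [pi_core.inf_eq_bot q1] at this
    exact commutatorElement_eq_one_iff_commute.1 this
  have h5 := h4.mul_pow (orderOf c)
  rw [pow_orderOf_eq_one, mul_one, ← hd, inv_mul_cancel_right, conj_pow, pow_orderOf_eq_one, mul_one,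
    mul_inv_cancel, hd] at h5
  have h6 : d = 1 := eq_one_of (pi_core.orderOf h2)
    ((q1.orderOf cQ).of_dvd (orderOf_dvd_of_pow_eq_one h5.symm))
  rw [← hd, mul_inv_eq_one, mul_inv_eq_iff_eq_mul] at h6
  exact h6

theorem in_top_of_core {L : Type*} [Group L] [Finite L] (f : G →* L) (hk : IsPi {p}ᶜ f.ker) {z : G}
    (h : f z ∈ pCore p L) : In p ⊤ z := by
  refine (comap_top f) ▸ In.comap f hk ⟨⊥, pCore p L, ?_, ?_, isPi_bot _, h, fun m hm => ?_⟩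
  · rw [normalizer_eq_top]
  · rw [normalizer_eq_top]
  · obtain ⟨n, hn⟩ := CA.Core.isPGroup_pCore (⟨m, hm⟩ : pCore p L)
    exact ⟨n, congrArg Subtype.val hn⟩

theorem in_of_pairs {K : Subgroup G} (hs : IsPSolvable p K) {z : G} (hK : z ∈ K)
    (hz : PiNat {p} (orderOf z)) (h : ∀ u ∈ K, In p (closure {z, u}) z) : In p K z := by
  let π := QuotientGroup.mk' (pPrimeCore p K)
  have h1 : In p ⊤ (⟨z, hK⟩ : K) := by
    refine in_top_of_core π (by rw [QuotientGroup.ker_mk']; exact pi_core') (mem_core (psolv_quotient hs _)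
      CA.Core.pPrimeCore_quotient_pPrimeCore (hz.of_dvd ((orderOf_map_dvd π _).trans
        (Subgroup.orderOf_coe (⟨z, hK⟩ : K)).symm.dvd)) fun u => ?_)
    obtain ⟨u, rfl⟩ := QuotientGroup.mk'_surjective (pPrimeCore p K) u
    have h2 := (In.comap (z := ⟨z, hK⟩) K.subtype (by rw [ker_subtype]; exact isPi_bot _) (h u u.2)).map π
    refine h2.mono ((closure_le _).2 ?_)
    rintro _ (rfl | rfl)
    · exact ⟨_, subset_closure (by simp), rfl⟩
    · exact ⟨_, subset_closure (by simp), rfl⟩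
  have := h1.map K.subtype
  rwa [← MonoidHom.range_eq_map, range_subtype] at this

end CA.H2Pow
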