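import Mathlib

/-! Anisotropic quadratic maps between elementary abelian 2-groups with fibres of constant size. -/

set_option autoImplicit false

namespace CA.H2Quad
open Finset

theorem arith1 {m n f : ℕ} {s N : ℤ} (hf : 2 ≤ f) (hn : 0 < n) (h1 : 2 ^ m = 1 + f * (2 ^ n - 1))
    (h2 : ((1 : ℤ) - f) ^ 2 = 2 ^ m * N) : (1 - f : ℤ) ^ 2 = 2 ^ m ∧ m = 2 * n := by
  have hq : 2 ≤ 2 ^ n := Nat.le_self_pow hn.ne' 2
  obtain ⟨f, rfl⟩ : ∃ g, f = g + 1 := ⟨f - 1, by omega⟩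
  obtain ⟨q, hq'⟩ : ∃ q, 2 ^ n = q + 1 := ⟨2 ^ n - 1, by omega⟩
  have h3 : 2 ^ m = 2 ^ n + f * q := by rw [h1, hq', Nat.add_sub_cancel]; ring
  have h4 : n < m := (Nat.pow_lt_pow_iff_right one_lt_two).1 (by
    rw [h3]; exact Nat.lt_add_of_pos_right (Nat.mul_pos (by omega) (by omega)))
  obtain ⟨j, rfl⟩ : ∃ j, m = n + (j + 1) := ⟨m - n - 1, by omega⟩
  obtain ⟨g, rfl⟩ : 2 ^ n ∣ f := by
    refine Nat.Coprime.dvd_of_dvd_mul_right (show (2 ^ n).Coprime q by rw [hq']; simp) ?_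
    exact (Nat.dvd_add_right dvd_rfl).1 (h3 ▸ pow_dvd_pow 2 h4.le)
  have h5 : 2 ^ (j + 1) = 1 + g * q := Nat.eq_of_mul_eq_mul_left (by omega : 0 < 2 ^ n) (by
    rw [← pow_add, h3]; ring)
  have h6 : 2 ^ (j + 1) ∣ 2 ^ n * g ^ 2 := by
    refine Nat.dvd_of_mul_dvd_mul_left (by omega : 0 < 2 ^ n) ?_
    rw [← pow_add, ← Int.natCast_dvd_natCast]
    exact ⟨N, by push_cast at h2 ⊢; rw [← h2]; ring⟩
  have h7 : Odd g := by
    have : Odd (g * q) := by
      rw [← Nat.not_even_iff_odd, even_iff_two_dvd]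
      rw [pow_succ] at h5; omega
    exact (Nat.odd_mul.1 this).1
  have h8 := Nat.le_of_dvd (by omega) (((Nat.coprime_two_left.2 h7).pow _ _).dvd_of_dvd_mul_right h6)
  have h9 : g = 1 := by
    have := h7.pos
    by_contra h
    have : 2 * q ≤ g * q := Nat.mul_le_mul_right _ (by omega)
    omega
  subst h9
  have h10 : j + 1 = n := Nat.pow_right_injective le_rfl (show 2 ^ (j + 1) = 2 ^ n by omega)
  rw [h10]
  exact ⟨by push_cast; ring, by ring⟩

theorem arith2 {ι : Type*} (T : Finset ι) (s : ι → ℤ) {a n : ℕ} (ha : 0 < a) (hn : 0 < n)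
    (hT : T.card + 1 = 2 ^ n) (h1 : ∀ i ∈ T, s i ^ 2 = 2 ^ a) (h2 : 2 ^ a + ∑ i ∈ T, s i = 2 ^ n) :
    a = 2 * n := by
  have hq : 2 ≤ 2 ^ n := Nat.le_self_pow hn.ne' 2
  obtain ⟨i, hi⟩ := card_pos.1 (show 0 < T.card by omega)
  obtain ⟨j, -, hj⟩ := (Nat.dvd_prime_pow Nat.prime_two).1 (show (s i).natAbs ∣ 2 ^ a from
    (dvd_pow_self _ two_ne_zero).trans (by rw [← Int.natAbs_pow, h1 i hi]; simp))
  have h3 : a = j * 2 := Nat.pow_right_injective le_rfl (show 2 ^ a = 2 ^ (j * 2) by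
    rw [pow_mul, ← hj, ← Int.natAbs_pow, h1 i hi]; simp)
  subst h3
  have h4 : ∀ i ∈ T, ∃ e : ℤ, s i = 2 ^ j * (2 * e + 1) := fun i hi => by
    have := h1 i hi
    rw [pow_mul, sq_eq_sq_iff_eq_or_eq_neg] at this
    rcases this with h | h
    exacts [⟨0, by simp [h]⟩, ⟨-1, by simp [h]⟩]
  choose! e he using h4
  rw [sum_congr rfl he, ← mul_sum, sum_add_distrib, ← mul_sum, sum_const, nsmul_one, pow_mul, pow_two,
    ← mul_add] at h2
  obtain ⟨j, rfl⟩ : ∃ i, j = i + 1 := ⟨j - 1, by omega⟩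
  obtain ⟨n, rfl⟩ : ∃ i, n = i + 1 := ⟨n - 1, by omega⟩
  have h5 : (T.card : ℤ) = 2 * 2 ^ n - 1 := by rw [eq_sub_iff_add_eq, ← pow_succ']; exact_mod_cast hT
  generalize hx : (2 : ℤ) ^ (j + 1) + (2 * ∑ i ∈ T, e i + T.card) = x at h2
  have h6 : Odd x := ⟨2 ^ j + ∑ i ∈ T, e i + 2 ^ n - 1, by rw [← hx, h5]; ring⟩
  have h7 := congrArg Int.natAbs h2
  rw [Int.natAbs_mul, Int.natAbs_pow, Int.natAbs_pow] at h7
  have h8 : x.natAbs = 1 := Nat.eq_one_of_dvd_coprimes ((Nat.coprime_two_left.2 h6.natAbs).pow_left (n + 1))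
    (Dvd.intro_left _ h7) dvd_rfl
  rw [h8, mul_one] at h7
  have := Nat.pow_right_injective le_rfl h7
  omega

variable {U V : Type*} [AddCommGroup U] [AddCommGroup V] [Finite U] [Finite V] {σ : U → V}

theorem card_two (hU : ∀ u : U, u + u = 0) : ∃ m, Nat.card U = 2 ^ m :=
  haveI := Fact.mk Nat.prime_two
  (IsPGroup.iff_card (G := Multiplicative U)).1 fun u => ⟨1, by
    rw [pow_one, pow_two]; exact hU u.toAdd⟩

omit [Finite U] in
theorem sq_dvd [Fintype U] (hV : ∀ v : V, v + v = 0) (h0 : σ 0 = 0)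
    (hβ : ∀ a b c, σ (a + (b + c)) + σ (b + c) = σ (a + b) + σ b + (σ (a + c) + σ c) + σ a)
    (ψ : AddChar V ℂ) : ∃ s N : ℤ, ∑ u, ψ (σ u) = s ∧ s ^ 2 = Nat.card U * N := by
  classical
  have h1 : ∀ v, ((if ψ v = 1 then 1 else -1 : ℤ) : ℂ) = ψ v := fun v => by
    split_ifs with h
    · simp [h]
    · have : ψ v * ψ v = 1 := by rw [← AddChar.map_add_eq_mul, hV, AddChar.map_zero_eq_one]
      simp [(mul_self_eq_one_iff.1 this).resolve_left h]
  let χ : U → AddChar U ℂ := fun h =>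
    { toFun := fun d => ψ (σ (h + d) + σ d + σ h)
      map_zero_eq_one' := by rw [add_zero, h0, add_zero, hV, AddChar.map_zero_eq_one]
      map_add_eq_mul' := fun a b => by
        rw [← AddChar.map_add_eq_mul, hβ]; congr 1; abel }
  refine ⟨∑ u, if ψ (σ u) = 1 then 1 else -1, ∑ h, if χ h = 0 then (if ψ (σ h) = 1 then 1 else -1) else 0,
    by simp only [Int.cast_sum, h1], Int.cast_injective (α := ℂ) ?_⟩
  simp only [Int.cast_pow, Int.cast_sum, Int.cast_mul, Int.cast_natCast, h1, Int.cast_ite, Int.cast_zero]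
  rw [pow_two, sum_mul_sum, mul_sum]
  simp only [fun d => (Equiv.sum_comp (Equiv.addRight d) fun h => ψ (σ d) * ψ (σ h)).symm]
  rw [sum_comm]
  refine sum_congr rfl fun h _ => ?_
  have h2 : ∀ d, ψ (σ d) * ψ (σ (Equiv.addRight d h)) = χ h d * ψ (σ h) := fun d => by
    show _ = ψ (σ (h + d) + σ d + σ h) * _
    rw [← AddChar.map_add_eq_mul, ← AddChar.map_add_eq_mul, add_assoc _ (σ h), hV, add_zero, add_comm]; rfl
  rw [sum_congr rfl fun d _ => h2 d, ← sum_mul, AddChar.sum_eq_ite, Nat.card_eq_fintype_card]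
  split_ifs <;> simp_all

theorem quad [Nontrivial V] (hU : ∀ u : U, u + u = 0) (hV : ∀ v : V, v + v = 0) (h0 : ∀ u, σ u = 0 ↔ u = 0)
    (hβ : ∀ a b c, σ (a + (b + c)) + σ (b + c) = σ (a + b) + σ b + (σ (a + c) + σ c) + σ a)
    (hf : ∀ v w, v ≠ 0 → w ≠ 0 → Nat.card {u // σ u = v} = Nat.card {u // σ u = w})
    (φ : U →+ U) (hφ : ∀ u, σ (φ u) = σ u) {k : ℕ} (hk : Odd k) (hk' : ∀ u, φ^[k] u = u) :
    (∀ u, φ u = u) ∨ ∀ u, φ u = u → u = 0 := by
  classical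
  haveI := Fintype.ofFinite U
  haveI := Fintype.ofFinite V
  obtain ⟨v0, hv0⟩ := exists_ne (0 : V)
  obtain ⟨n, hn⟩ := card_two hV
  obtain ⟨m, hm⟩ := card_two hU
  have hn0 : 0 < n := Nat.pos_of_ne_zero fun e => by
    rw [e] at hn; exact (Finite.one_lt_card (α := V)).ne' hn
  obtain ⟨f, hfd⟩ : ∃ f, f = Nat.card {u // σ u = v0} := ⟨_, rfl⟩
  have fib : ∀ g : V → ℂ, ∑ u, g (σ u) = g 0 + f * (∑ v, g v - g 0) := fun g => by
    rw [← sum_fiberwise univ σ, ← add_sum_erase _ _ (mem_univ 0), ← sum_erase_eq_sub (mem_univ _), mul_sum]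
    congr 1
    · rw [show univ.filter (fun u => σ u = 0) = {0} by ext; simp [h0], sum_singleton, (h0 0).2 rfl]
    · refine sum_congr rfl fun v hv => ?_
      rw [sum_congr rfl (g := fun _ => g v) fun u hu => by rw [(mem_filter.1 hu).2], sum_const, nsmul_eq_mul,
        hfd, ← hf v v0 (ne_of_mem_erase hv) hv0, Nat.card_eq_fintype_card, Fintype.card_subtype]
  by_cases h1 : f ≤ 1
  · refine .inl fun u => ?_
    by_cases h : u = 0
    · rw [h, map_zero]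
    · rw [← hf (σ u) v0 (mt (h0 u).1 h) hv0] at hfd
      rw [hfd, Finite.card_le_one_iff_subsingleton] at h1
      exact congrArg Subtype.val (h1.elim ⟨φ u, hφ u⟩ ⟨u, rfl⟩)
  have hU' : 2 ^ m = 1 + f * (2 ^ n - 1) := by
    have := fib fun _ => 1
    simp only [sum_const, card_univ, nsmul_one, ← Nat.card_eq_fintype_card, hm, hn] at this
    rw [← Nat.cast_one (R := ℂ), ← Nat.cast_sub Nat.one_le_two_pow] at this
    exact_mod_cast this
  let δ := φ - AddMonoidHom.id U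
  by_contra! hcon
  obtain ⟨⟨u1, hu1⟩, u2, hu2, hu2'⟩ := hcon
  have hA : ∀ {u}, u ∈ δ.ker ↔ φ u = u := fun {u} => sub_eq_zero
  obtain ⟨a, ha⟩ := card_two (U := δ.ker) fun u => Subtype.ext (hU u)
  have hAB : Nat.card δ.ker * Nat.card δ.range = 2 ^ m := by
    rw [← AddSubgroup.index_ker, AddSubgroup.card_mul_index, hm]
  have hd : ∀ b ∈ δ.range, φ b = b → b = 0 := by
    rintro _ ⟨u, rfl⟩ h
    have h2 : ∀ i, φ^[i] u = u + i • δ u := fun i => by
      induction i with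
      | zero => simp
      | succ i ih =>
        rw [Function.iterate_succ_apply', ih, map_add, map_nsmul, h, succ_nsmul', ← add_assoc]
        simp [δ]
    have h3 := h2 k
    obtain ⟨j, rfl⟩ := hk
    rwa [hk', left_eq_add, succ_nsmul, mul_nsmul', two_nsmul, hU, zero_add] at h3
  let E : δ.ker × δ.range ≃ U := Equiv.ofBijective (fun x => x.1 + x.2)
    ((Nat.bijective_iff_injective_and_card _).2 ⟨fun x y e => by
      have e1 : (x.2 : U) - y.2 = y.1 - x.1 := by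
        rw [sub_eq_sub_iff_add_eq_add, add_comm]; exact e
      have e2 := hd _ (sub_mem x.2.2 y.2.2) (by rw [e1]; exact hA.1 (sub_mem y.1.2 x.1.2))
      exact Prod.ext (Subtype.ext (sub_eq_zero.1 (e1 ▸ e2)).symm) (Subtype.ext (sub_eq_zero.1 e2)),
      by rw [Nat.card_prod, hAB, hm]⟩)
  have hE : ∀ x, σ (E x) = σ x.1 + σ x.2 := by
    rintro ⟨⟨x, hx⟩, _, u, rfl⟩
    have e : δ u = φ u + u := sub_eq_iff_eq_add.2 (by
      rw [add_assoc, AddMonoidHom.id_apply, hU, add_zero])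
    show σ (x + δ u) = σ x + σ (δ u)
    have h2 := hβ x (φ u) u
    rw [show x + φ u = φ (x + u) by rw [map_add, hA.1 hx], hφ, hφ, hV, zero_add, ← e] at h2
    rw [← h2, add_assoc, hV, add_zero]
  have key : ∀ ψ : AddChar V ℂ, ∃ s : ℤ, ∑ u : δ.ker, ψ (σ u) = s ∧ (ψ ≠ 0 → s ^ 2 = 2 ^ a ∧ m = 2 * n) := by
    intro ψ
    obtain ⟨s, N, h2, h3⟩ := sq_dvd (σ := fun u : δ.ker => σ u) hV ((h0 _).2 rfl) (fun a b c => hβ a b c) ψ
    refine ⟨s, h2, fun hψ => ?_⟩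
    obtain ⟨s', N', h4, h5⟩ := sq_dvd (σ := fun u : δ.range => σ u) hV ((h0 _).2 rfl) (fun a b c => hβ a b c) ψ
    obtain ⟨t, M, h6, h7⟩ := sq_dvd hV ((h0 _).2 rfl) hβ ψ
    have h8 : t = 1 - f := Int.cast_injective (α := ℂ) (by
      rw [← h6, fib, AddChar.sum_eq_zero_iff_ne_zero.2 hψ, AddChar.map_zero_eq_one]; push_cast; ring)
    have h9 : t = s * s' := Int.cast_injective (α := ℂ) (by
      rw [← h6, ← E.sum_comp, Int.cast_mul, ← h2, ← h4, sum_mul_sum, Fintype.sum_prod_type]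
      simp only [hE, AddChar.map_add_eq_mul])
    rw [h8, hm, Nat.cast_pow, Nat.cast_ofNat] at h7
    obtain ⟨h10, h11⟩ := arith1 (s := 0) (by omega) hn0 hU' h7
    rw [← h8, h9, mul_pow, h3, h5, mul_mul_mul_comm, ← Nat.cast_mul, hAB, Nat.cast_pow, Nat.cast_ofNat,
      mul_eq_left₀ (by positivity)] at h10
    have h12 : 0 ≤ N := nonneg_of_mul_nonneg_right (h3 ▸ sq_nonneg s) (by exact_mod_cast Nat.card_pos) |> fun h => h
    rw [h3, Int.eq_one_of_mul_eq_one_right h12 h10, ha]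
    exact ⟨by simp, h11⟩
  choose s hs hs' using key
  have h2 : (2 : ℤ) ^ a + ∑ ψ ∈ univ.erase 0, s ψ = 2 ^ n := Int.cast_injective (α := ℂ) (by
    have e : ((2 : ℤ) ^ a : ℂ) = s 0 := by
      rw [← hs]
      simp only [AddChar.zero_apply, sum_const, card_univ, ← Nat.card_eq_fintype_card, ha]; simp
    push_cast at e ⊢
    rw [e, add_sum_erase _ (fun ψ => (s ψ : ℂ)) (mem_univ 0), ← sum_congr rfl fun ψ _ => hs ψ, sum_comm]
    simp only [AddChar.sum_apply_eq_ite, h0, ZeroMemClass.coe_eq_zero, sum_ite_eq', mem_univ, if_true]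
    rw [← Nat.card_eq_fintype_card, hn]; simp)
  have hT : (univ.erase (0 : AddChar V ℂ)).card + 1 = 2 ^ n := by
    rw [card_erase_add_one (mem_univ _), card_univ, AddChar.card_eq, ← Nat.card_eq_fintype_card, hn]
  have ha0 : 0 < a := Nat.pos_of_ne_zero fun e => by
    rw [e, pow_zero, AddSubgroup.card_eq_one] at ha
    exact hu2' (AddSubgroup.mem_bot.1 (ha ▸ hA.2 hu2))
  have h3 := arith2 _ s ha0 hn0 hT (fun ψ h => (hs' ψ (ne_of_mem_erase h)).1) h2
  obtain ⟨ψ, hψ⟩ := card_pos.1 (show 0 < (univ.erase (0 : AddChar V ℂ)).card by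
    have := Nat.le_self_pow hn0.ne' 2; omega)
  refine hu1 (hA.1 ((AddSubgroup.eq_top_of_card_eq δ.ker ?_).ge (AddSubgroup.mem_top _)))
  rw [ha, hm, h3, (hs' ψ (ne_of_mem_erase hψ)).2]

/-- group form -/
theorem quadW {W : Type*} [Group W] [Finite W] (V : Subgroup W) (hZ : V ≤ Subgroup.center W) (hV : V ≠ ⊥)
    (h2 : ∀ w, w ^ 2 ∈ V) (h1 : ∀ w, w ^ 2 = 1 ↔ w ∈ V)
    (hf : ∀ v ∈ V, ∀ w ∈ V, v ≠ 1 → w ≠ 1 → ∃ e : W ≃* W, e v = w ∧ ∀ x, e x ∈ V ↔ x ∈ V)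
    (φ : MulAut W) (hφ : ∀ v ∈ V, φ v = v) (hk : Odd (orderOf φ)) :
    (∀ w, φ w * w⁻¹ ∈ V) ∨ ∀ w, φ w * w⁻¹ ∈ V → w ∈ V := by
  have hc : ∀ v ∈ V, ∀ w, w * v = v * w := fun v hv w => Subgroup.mem_center_iff.1 (hZ hv) w
  haveI : V.Normal := ⟨fun v hv g => by rwa [hc v hv, mul_inv_cancel_right]⟩
  have q2 : ∀ u : W ⧸ V, u * u = 1 := fun u => by
    obtain ⟨w, rfl⟩ := QuotientGroup.mk'_surjective V u
    rw [← map_mul, ← pow_two]; exact (QuotientGroup.eq_one_iff _).2 (h2 w)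
  have inv : ∀ u : W ⧸ V, u⁻¹ = u := fun u => inv_eq_of_mul_eq_one_left (q2 u)
  letI : CommGroup (W ⧸ V) := { (inferInstance : Group (W ⧸ V)) with
    mul_comm := fun a b => by rw [← inv (a * b), mul_inv_rev, inv, inv] }
  letI : CommGroup V := { (inferInstance : Group V) with mul_comm := fun a b => Subtype.ext (hc _ b.2 a) }
  haveI := (Subgroup.nontrivial_iff_ne_bot V).2 hV
  have sqv : ∀ w, ∀ v ∈ V, (w * v) ^ 2 = w ^ 2 := fun w v hv => by
    rw [(show Commute w v from hc v hv w).mul_pow, (h1 v).2 hv, mul_one]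
  let σ : W ⧸ V → V := Quotient.lift (fun w => ⟨w ^ 2, h2 w⟩) fun a b h => Subtype.ext (by
    have := sqv a _ (QuotientGroup.leftRel_apply.1 h)
    rw [mul_inv_cancel_left] at this
    exact this.symm)
  have mp : ∀ e : W ≃* W, (∀ x, e x ∈ V ↔ x ∈ V) → V.map (e : W →* W) = V := fun e h => by
    ext x
    rw [← MulEquiv.toMonoidHom_eq_coe, Subgroup.mem_map_equiv, ← h, e.apply_symm_apply]
  have hφ' : ∀ x, φ x ∈ V ↔ x ∈ V := fun x =>
    ⟨fun h => φ.injective (hφ _ h) ▸ h, fun h => (hφ x h).symm ▸ h⟩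
  let φ' := QuotientGroup.congr V V φ (mp φ hφ')
  have := quad (U := Additive (W ⧸ V)) (V := Additive V) (σ := fun u => Additive.ofMul (σ u.toMul))
    (fun u => q2 u.toMul) (fun v => Subtype.ext ((pow_two _).symm.trans ((h1 _).2 v.toMul.2)))
    (fun u => by
      obtain ⟨w, rfl⟩ : ∃ w : W, Additive.ofMul (w : W ⧸ V) = u := QuotientGroup.mk_surjective u.toMul
      exact Subtype.ext_iff.trans ((h1 w).trans (QuotientGroup.eq_one_iff w).symm))
    (fun a b c => by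
      obtain ⟨a, rfl⟩ : ∃ w : W, Additive.ofMul (w : W ⧸ V) = a := QuotientGroup.mk_surjective a.toMul
      obtain ⟨b, rfl⟩ : ∃ w : W, Additive.ofMul (w : W ⧸ V) = b := QuotientGroup.mk_surjective b.toMul
      obtain ⟨c, rfl⟩ : ∃ w : W, Additive.ofMul (w : W ⧸ V) = c := QuotientGroup.mk_surjective c.toMul
      refine Subtype.ext (show (a * (b * c)) ^ 2 * (b * c) ^ 2 =
        (a * b) ^ 2 * b ^ 2 * ((a * c) ^ 2 * c ^ 2) * a ^ 2 from ?_)
      have e : ∀ x : W, (a * x) ^ 2 * x ^ 2 = a ^ 2 * (a⁻¹ * x * a * x⁻¹) := fun x => by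
        have := (h1 _).2 (h2 x)
        calc _ = a ^ 2 * (a⁻¹ * x * a * x⁻¹) * (x ^ 2) ^ 2 := by simp only [pow_two]; group
          _ = _ := by rw [this, mul_one]
      have e2 : a⁻¹ * c * a * c⁻¹ ∈ V := by
        rw [← QuotientGroup.eq_one_iff]
        simp [mul_comm, mul_left_comm]
      have a4 : a ^ 2 * a ^ 2 = 1 := by rw [← pow_two, (h1 _).2 (h2 a)]
      have e3 : a⁻¹ * (b * c) * a * (b * c)⁻¹ = a⁻¹ * b * a * b⁻¹ * (a⁻¹ * c * a * c⁻¹) :=
        calc _ = a⁻¹ * b * a * (a⁻¹ * c * a * c⁻¹) * b⁻¹ := by group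
          _ = _ := by rw [mul_assoc _ _ b⁻¹, ← hc _ e2]; group
      rw [e, e, e, e3]
      have h3 := hc _ (h2 a)
      generalize a ^ 2 = z at a4 h3
      generalize a⁻¹ * b * a * b⁻¹ = x
      generalize a⁻¹ * c * a * c⁻¹ = y
      rw [mul_assoc (z * x), mul_assoc z y, h3 y, ← mul_assoc z z, a4, one_mul, mul_assoc])
    (fun v w hv hw => by
      obtain ⟨e, he, he'⟩ := hf _ v.toMul.2 _ w.toMul.2 (fun h => hv (Subtype.ext h)) fun h => hw (Subtype.ext h)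
      refine Nat.card_congr (Equiv.subtypeEquiv (QuotientGroup.congr V V e (mp e he')).toEquiv fun u => ?_)
      obtain ⟨x, rfl⟩ : ∃ w : W, Additive.ofMul (w : W ⧸ V) = u := QuotientGroup.mk_surjective u.toMul
      refine Subtype.ext_iff.trans (Iff.trans ?_ Subtype.ext_iff.symm)
      show x ^ 2 = (v.toMul : W) ↔ e x ^ 2 = (w.toMul : W)
      rw [← he, ← map_pow, e.apply_eq_iff_eq])
    (MonoidHom.toAdditive φ'.toMonoidHom) (fun u => by
      obtain ⟨x, rfl⟩ : ∃ w : W, Additive.ofMul (w : W ⧸ V) = u := QuotientGroup.mk_surjective u.toMul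
      refine Subtype.ext (show φ x ^ 2 = x ^ 2 from ?_)
      rw [← map_pow, hφ _ (h2 x)]) hk (fun u => by
      obtain ⟨x, rfl⟩ : ∃ w : W, Additive.ofMul (w : W ⧸ V) = u := QuotientGroup.mk_surjective u.toMul
      have : ∀ i, (MonoidHom.toAdditive φ'.toMonoidHom)^[i] (Additive.ofMul (x : W ⧸ V)) =
          Additive.ofMul (((φ ^ i) x : W) : W ⧸ V) := fun i => by
        induction i with
        | zero => rfl
        | succ i ih => rw [Function.iterate_succ_apply', ih, pow_succ']; rfl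
      rw [this, pow_orderOf_eq_one]; rfl)
  have e : ∀ w, φ w * w⁻¹ ∈ V ↔ ((φ w : W) : W ⧸ V) = w := fun w => by
    rw [← QuotientGroup.eq_one_iff, QuotientGroup.mk_mul, QuotientGroup.mk_inv, mul_inv_eq_one]
  exact this.imp (fun h w => (e w).2 (h (Additive.ofMul (w : W ⧸ V))))
    fun h w hw => (QuotientGroup.eq_one_iff w).1 (h (Additive.ofMul (w : W ⧸ V)) ((e w).1 hw))

end CA.H2Quad
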