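import Cfsg.Agent.Lib.Solv.HH2
import Cfsg.Agent.Lib.Odd.BG4x2

/-!
The dimension of an irreducible representation of a `q`-group in characteristic other than `q`
is a power of `q`.
-/

set_option autoImplicit false
set_option linter.unusedSectionVars false
set_option linter.unusedVariables false
set_option linter.style.haveILetI false

namespace CA.HH
open Subgroup Cfsg CA.OQuo CA.BG CA.BGRep Module
open scoped commutatorElement

universe u

variable {G : Type*} [Group G] [Finite G] {k : Type*} [Field k]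

section
variable {D : Subgroup G} {W : Type*} [AddCommGroup W] [Module k W] {ρ : Representation k D W}
  {Q M : Subgroup G}

/-- `W` is irreducible for the subgroup `Q` -/
def IrrOn (ρ : Representation k D W) (Q : Subgroup G) : Prop :=
  ∀ U : Submodule k W, BGRep.Inv ρ Q U → U = ⊥ ∨ U = ⊤

theorem IrrOn.schur [IsAlgClosed k] [FiniteDimensional k W] (h : IrrOn ρ Q) {T : End k W}
    (hT : ∀ x ∈ Q, rp ρ x * T = T * rp ρ x) : ∃ c : k, T = c • (1 : End k W) := by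
  rcases subsingleton_or_nontrivial W with hW | hW
  · exact ⟨0, Subsingleton.elim _ _⟩
  obtain ⟨c, hc⟩ := Module.End.exists_eigenvalue T
  refine ⟨c, ?_⟩
  have h1 : T.eigenspace c = ⊤ := (h _ fun x hx w hw => by
    rw [Module.End.mem_eigenspace_iff] at hw ⊢
    rw [← Module.End.mul_apply, ← hT x hx, Module.End.mul_apply, hw, map_smul]).resolve_left hc
  ext w
  exact Module.End.mem_eigenspace_iff.1 (h1 ▸ Submodule.mem_top)

theorem IrrOn.scalar [IsAlgClosed k] [FiniteDimensional k W] (hQ : Q ≤ D) (h : IrrOn ρ Q) :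
    ∀ T ∈ Fix (ρ.linHom ρ) Q, ∃ c : k, T = c • (1 : End k W) :=
  fun T hT => h.schur ((mem_Fix_linHom hQ).1 hT)

theorem irrOn_of_scalar [FiniteDimensional k W] (hQ : Q ≤ D) (hk : (♯Q : k) ≠ 0)
    (hs : ∀ T ∈ Fix (ρ.linHom ρ) Q, ∃ c : k, T = c • (1 : End k W)) : IrrOn ρ Q := by
  intro U hU
  have h1 : ∀ f : End k W, ∀ w ∈ U, f w ∈ U := by
    intro f
    have hf : f ∈ Submodule.span k (Set.range fun y : Q => rp ρ y) := by
      rw [span_rp_eq_top hQ hk hs]; trivial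
    induction hf using Submodule.span_induction with
    | mem x hx => obtain ⟨y, rfl⟩ := hx; exact hU y y.2
    | zero => intro w _; exact U.zero_mem
    | add a b _ _ ha hb => intro w hw; exact U.add_mem (ha w hw) (hb w hw)
    | smul c a _ ha => intro w hw; exact U.smul_mem c (ha w hw)
  by_cases h0 : U = ⊥
  · exact Or.inl h0
  right
  obtain ⟨u, hu, hu0⟩ := (Submodule.ne_bot_iff U).1 h0
  obtain ⟨φ, hφ⟩ := Module.Projective.exists_dual_ne_zero k hu0
  rw [eq_top_iff]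
  intro w _
  have := h1 (φ.smulRight ((φ u)⁻¹ • w)) u hu
  rwa [LinearMap.smulRight_apply, smul_smul, mul_inv_cancel₀ hφ, one_smul] at this

theorem exists_twist [IsAlgClosed k] [FiniteDimensional k W] {q : ℕ} (hqk : (q : k) ≠ 0) (hQ : Q ≤ D)
    {t : G} (hM : M ⊔ zpowers t = Q) (hn : t ∈ 𝓝(M)) (htq : t ^ q ∈ M) (hi : IrrOn ρ Q)
    (hs : ¬ ∀ T ∈ Fix (ρ.linHom ρ) M, ∃ c : k, T = c • (1 : End k W)) :
    ∃ (T : End k W) (ζ : k), T ≠ 0 ∧ ζ ≠ 1 ∧ ζ ^ q = 1 ∧ (∀ y ∈ M, rp ρ y * T = T * rp ρ y) ∧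
      rp ρ t * T = ζ • (T * rp ρ t) := by
  push Not at hs
  obtain ⟨T0, hT0, hT0'⟩ := hs
  have hMD : M ≤ D := (hM ▸ le_sup_left : M ≤ Q).trans hQ
  have htD : t ∈ D := hQ (hM ▸ mem_sup_right (mem_zpowers t))
  set τ := rp (ρ.linHom ρ) t with hτ
  have hinv : ∀ S ∈ Fix (ρ.linHom ρ) M, τ S ∈ Fix (ρ.linHom ρ) M :=
    inv_Fix hMD (zpowers_le.2 htD) (zpowers_le.2 hn) t (mem_zpowers t)
  have hq1 : ∀ S ∈ Fix (ρ.linHom ρ) M, (τ ^ q) S = S := fun S hS => by
    rw [hτ, ← rp_pow _ htD]; exact hS _ htq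
  let C : Submodule k (End k W) := Fix (ρ.linHom ρ) M ⊓ LinearMap.ker (∑ i ∈ Finset.range q, τ ^ i)
  have hC : ∀ S ∈ C, τ S ∈ C := fun S hS => ⟨hinv S hS.1, by
    have h2 : (∑ i ∈ Finset.range q, τ ^ i) S = 0 := hS.2
    show (∑ i ∈ Finset.range q, τ ^ i) (τ S) = 0
    rw [← Module.End.mul_apply, ← (Commute.sum_right _ _ _ fun i _ => Commute.self_pow τ i).eq,
      Module.End.mul_apply, h2, map_zero]⟩
  have hS0 : τ T0 - T0 ∈ C := ⟨sub_mem (hinv _ hT0) hT0, by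
    show (∑ i ∈ Finset.range q, τ ^ i) ((τ - 1) T0) = 0
    rw [← Module.End.mul_apply, geom_sum_mul, LinearMap.sub_apply, hq1 _ hT0]; simp⟩
  have hS0' : τ T0 - T0 ≠ 0 := fun h => by
    obtain ⟨c, hc⟩ := hi.scalar hQ T0 (by
      rw [← hM, Fix_sup hMD (zpowers_le.2 htD)]
      exact ⟨hT0, (mem_Fix_zpowers htD).2 (sub_eq_zero.1 h)⟩)
    exact hT0' c hc
  haveI : Nontrivial C := ⟨⟨⟨_, hS0⟩, 0, fun h => hS0' (congrArg Subtype.val h)⟩⟩
  obtain ⟨ζ, hζ⟩ := Module.End.exists_eigenvalue (τ.restrict hC)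
  obtain ⟨⟨T, hTC⟩, hT⟩ := hζ.exists_hasEigenvector
  have hT0 : T ≠ 0 := fun h => hT.2 (Subtype.ext h)
  have hτT : τ T = ζ • T := congrArg Subtype.val hT.apply_eq_smul
  have hpow : ∀ i : ℕ, (τ ^ i) T = ζ ^ i • T := fun i => by
    induction i with
    | zero => simp
    | succ i ih => rw [pow_succ', Module.End.mul_apply, ih, map_smul, hτT, smul_smul, pow_succ]
  refine ⟨T, ζ, hT0, fun h => ?_, ?_, (mem_Fix_linHom hMD).1 hTC.1, ?_⟩
  · have h2 : (∑ i ∈ Finset.range q, τ ^ i) T = 0 := hTC.2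
    rw [LinearMap.sum_apply] at h2
    simp only [hpow, h, one_pow, one_smul, Finset.sum_const, Finset.card_range] at h2
    rw [← Nat.cast_smul_eq_nsmul k, smul_eq_zero] at h2
    exact h2.elim hqk hT0
  · have h2 := hq1 T hTC.1
    rw [hpow] at h2
    by_contra h
    exact hT0 ((smul_eq_zero.1 (show (ζ ^ q - 1) • T = 0 by
      rw [sub_smul, h2, one_smul, sub_self])).resolve_left (sub_ne_zero.2 h))
  · rw [hτ, rp_linHom htD] at hτT
    rw [← smul_mul_assoc, ← hτT, mul_assoc, rp_inv_mul ρ htD, mul_one]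

theorem finrank_twist [IsAlgClosed k] [FiniteDimensional k W] [Nontrivial W] {q : ℕ} (hq : q.Prime)
    (hQ : Q ≤ D) {t : G} (hM : M ⊔ zpowers t = Q) (hn : t ∈ 𝓝(M)) (htq : t ^ q ∈ M) (hi : IrrOn ρ Q)
    {T : End k W} {ζ : k} (h0 : T ≠ 0) (h1 : ζ ≠ 1) (h2 : ζ ^ q = 1)
    (h3 : ∀ y ∈ M, rp ρ y * T = T * rp ρ y) (h4 : rp ρ t * T = ζ • (T * rp ρ t)) :
    ∃ (U : Submodule k W) (hU : BGRep.Inv ρ M U), U ≠ ⊥ ∧
      Irr (res ρ ((hM ▸ le_sup_left : M ≤ Q).trans hQ) U hU) ∧ finrank k W = q * finrank k U := by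
  classical
  have hMD : M ≤ D := (hM ▸ le_sup_left : M ≤ Q).trans hQ
  have htD : t ∈ D := hQ (hM ▸ mem_sup_right (mem_zpowers t))
  have hζ0 : ζ ≠ 0 := fun h => by rw [h, zero_pow hq.ne_zero] at h2; exact zero_ne_one h2
  have h4' : ∀ w, T (rp ρ t w) = ζ⁻¹ • rp ρ t (T w) := fun w => by
    rw [← Module.End.mul_apply (rp ρ t), h4, LinearMap.smul_apply, smul_smul, inv_mul_cancel₀ hζ0,
      one_smul]; rfl
  have hker : LinearMap.ker T = ⊥ := (hi _ (by
    rw [← hM]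
    refine BGRep.Inv.sup_left hMD (zpowers_le.2 htD) (fun y hy w hw => ?_)
      ((inv_iff_le_sstab (zpowers_le.2 htD)).2 (zpowers_le.2 (mem_sstab_of_finite htD fun w hw => ?_)))
    · rw [LinearMap.mem_ker] at hw ⊢
      rw [← Module.End.mul_apply, ← h3 y hy, Module.End.mul_apply, hw, map_zero]
    · rw [LinearMap.mem_ker] at hw ⊢
      rw [h4', hw, map_zero, smul_zero])).resolve_right fun h => h0 (LinearMap.ker_eq_top.1 h)
  obtain ⟨l, hl⟩ := Module.End.exists_eigenvalue T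
  have hl0 : l ≠ 0 := by
    rintro rfl
    exact hl ((Module.End.eigenspace_zero T).trans hker)
  obtain ⟨U, hU, hUl, hU0, hUi⟩ := exists_irr_res (ρ := ρ) hMD (U := T.eigenspace l)
    (fun y hy w hw => by
      rw [Module.End.mem_eigenspace_iff] at hw ⊢
      rw [← Module.End.mul_apply, ← h3 y hy, Module.End.mul_apply, hw, map_smul]) hl
  refine ⟨U, hU, hU0, hUi, ?_⟩
  have hprim : IsPrimitiveRoot ζ⁻¹ q := by
    haveI := Fact.mk hq
    have := IsPrimitiveRoot.orderOf ζ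
    rw [orderOf_eq_prime h2 h1] at this
    exact this.inv
  have heig : ∀ i : ℕ, ∀ w ∈ U, (rp ρ t ^ i) w ∈ T.eigenspace (ζ⁻¹ ^ i * l) := fun i w hw => by
    rw [Module.End.mem_eigenspace_iff]
    induction i with
    | zero => simpa using Module.End.mem_eigenspace_iff.1 (hUl hw)
    | succ i ih =>
      rw [pow_succ', Module.End.mul_apply, h4', ih, map_smul, smul_smul, pow_succ', mul_assoc]
  have hind : iSupIndep fun i : Fin q => T.eigenspace (ζ⁻¹ ^ (i : ℕ) * l) :=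
    T.eigenspaces_iSupIndep.comp (f := fun i : Fin q => ζ⁻¹ ^ (i : ℕ) * l) fun i j h =>
      Fin.ext (hprim.pow_inj i.2 j.2 (mul_right_cancel₀ hl0 h))
  let φ : (Fin q → U) →ₗ[k] W := ∑ i : Fin q, (rp ρ t ^ (i : ℕ)) ∘ₗ U.subtype ∘ₗ LinearMap.proj i
  have hφ : ∀ f, φ f = ∑ i : Fin q, (rp ρ t ^ (i : ℕ)) (f i) := fun f => by
    simp only [φ, LinearMap.sum_apply]; rfl
  have hinj : Function.Injective φ := by
    rw [injective_iff_map_eq_zero]
    intro f hf
    rw [hφ] at hf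
    have := (iSupIndep_iff_finsetSum_eq_zero_imp_eq_zero _).1 hind Finset.univ
      (fun i => (rp ρ t ^ (i : ℕ)) (f i)) (fun i _ => heig i _ (f i).2) hf
    funext i
    refine Subtype.ext (rp_injective ρ (pow_mem htD (i : ℕ)) ?_)
    rw [rp_pow _ htD, this i (Finset.mem_univ i)]; simp
  have hmem : ∀ i : ℕ, ∀ w ∈ U, (rp ρ t ^ i) w ∈ LinearMap.range φ := fun i w hw => by
    have hw' : (rp ρ t ^ (q * (i / q))) w ∈ U := by
      rw [← rp_pow _ htD, pow_mul]; exact hU _ (pow_mem htq _) w hw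
    refine ⟨Pi.single ⟨i % q, Nat.mod_lt _ hq.pos⟩ ⟨_, hw'⟩, ?_⟩
    rw [hφ, Finset.sum_eq_single ⟨i % q, Nat.mod_lt _ hq.pos⟩ (fun b _ hb => by simp [hb]) (by simp)]
    simp only [Pi.single_eq_same]
    rw [← Module.End.mul_apply, ← pow_add, Nat.mod_add_div]
  have hr : LinearMap.range φ = ⊤ := (hi _ (by
    rw [← hM]
    refine BGRep.Inv.sup_left hMD (zpowers_le.2 htD) ?_
      ((inv_iff_le_sstab (zpowers_le.2 htD)).2 (zpowers_le.2 (mem_sstab_of_finite htD ?_)))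
    · rintro y hy _ ⟨f, rfl⟩
      rw [hφ, map_sum]
      refine Submodule.sum_mem _ fun i _ => ?_
      rw [← rp_pow _ htD, rp_conj_apply ρ (pow_mem htD _) (hMD hy), rp_pow _ htD]
      refine hmem _ _ (hU _ ?_ _ (f i).2)
      have := (mem_normalizer_iff.1 (inv_mem (pow_mem hn (i : ℕ))) y).1 hy
      rwa [inv_inv] at this
    · rintro _ ⟨f, rfl⟩
      rw [hφ, map_sum]
      refine Submodule.sum_mem _ fun i _ => ?_
      rw [← Module.End.mul_apply, ← pow_succ']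
      exact hmem _ _ (f i).2)).resolve_left fun h => by
    obtain ⟨u, hu, hu0⟩ := (Submodule.ne_bot_iff U).1 hU0
    have := hmem 0 u hu
    rw [h] at this
    exact hu0 (by simpa using this)
  rw [← finrank_top, ← hr, LinearMap.finrank_range_of_inj hinj, Module.finrank_pi_fintype,
    Finset.sum_const, Finset.card_univ, Fintype.card_fin, smul_eq_mul]

end

theorem finrank_eq_pow [IsAlgClosed k] {q : ℕ} (hq : q.Prime) (hqk : (q : k) ≠ 0) (n : ℕ) :
    ∀ (Q D : Subgroup G) (W : Type u) [AddCommGroup W] [Module k W] [FiniteDimensional k W]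
    [Nontrivial W] (ρ : Representation k D W), ♯Q = n → Q ≤ D → IsPi {q} Q → IrrOn ρ Q →
    ∃ b, finrank k W = q ^ b := by
  induction n using Nat.strong_induction_on with
  | _ n ih =>
  intro Q D W _ _ _ _ ρ hn hQ hp hi
  have hk : ∀ M : Subgroup G, IsPi {q} M → (♯M : k) ≠ 0 := fun M hM => by
    haveI := Fact.mk hq
    obtain ⟨a, ha⟩ := IsPGroup.iff_card.1 (hM.isPGroup hq)
    rw [ha, Nat.cast_pow]; exact pow_ne_zero _ hqk
  by_cases h0 : Q = ⊥
  · have := sq_finrank_eq_relIndex hQ (hk Q hp) (hi.scalar hQ) le_rfl (fun z hz => ⟨1, by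
      rw [h0, mem_bot] at hz; rw [hz, rp_one, one_smul]⟩) (fun g hg h => absurd hg h)
    rw [relIndex_self] at this
    exact ⟨0, by simpa using this⟩
  obtain ⟨M, -, hMQ, hMi, hMn⟩ := CA.BG4.exists_below hq hp (bot_lt_iff_ne_bot.2 h0)
  obtain ⟨t, ht, -, hM⟩ := CA.BG4.exists_sup_zpowers hq hMQ hMi
  have hlt : ♯M < n := by
    have := card_mul_relIndex hMQ
    rw [hMi, hn] at this
    have h1 := hq.one_lt
    have h2 : 0 < ♯M := Nat.card_pos
    nlinarith
  by_cases hs : ∀ T ∈ Fix (ρ.linHom ρ) M, ∃ c : k, T = c • (1 : End k W)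
  · exact ih _ hlt M D W ρ rfl (hMQ.trans hQ) (hp.of_le hMQ)
      (irrOn_of_scalar (hMQ.trans hQ) (hk M (hp.of_le hMQ)) hs)
  have htq : t ^ q ∈ M := by
    haveI := (normal_subgroupOf_iff_le_normalizer hMQ).2 hMn
    have := pow_index_mem (M.subgroupOf Q) ⟨t, ht⟩
    rwa [show (M.subgroupOf Q).index = q from hMi] at this
  obtain ⟨T, ζ, a0, a1, a2, a3, a4⟩ := exists_twist hqk hQ hM (hMn ht) htq hi hs
  obtain ⟨U, hU, hU0, hUi, h⟩ := finrank_twist hq hQ hM (hMn ht) htq hi a0 a1 a2 a3 a4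
  haveI := Submodule.nontrivial_iff_ne_bot.2 hU0
  obtain ⟨b, hb⟩ := ih _ hlt M M U _ rfl le_rfl (hp.of_le hMQ) hUi
  exact ⟨b + 1, by rw [h, hb, pow_succ']⟩

end CA.HH
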