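import Cfsg.Agent.Lib.Solv.HS5

/-!
Fixed-point-free action of the symmetric group of degree three.
-/

set_option autoImplicit false
set_option linter.unusedSectionVars false
set_option linter.unusedVariables false
set_option linter.style.haveILetI false

universe u

namespace CA.HS
open Subgroup Cfsg CA.OQuo CA.BG CA.BGRep Module
open scoped commutatorElement

section
variable {G : Type*} [Group G] [Finite G] {D : Subgroup G} {k W : Type*} [Field k] [AddCommGroup W]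
  [Module k W] {ρ : Representation k D W} {A B H N Q : Subgroup G} {σ τ b : G} {q l : ℕ}

theorem s3_core (hσ : σ ∈ 𝓝(Q)) (hτ : τ ∈ 𝓝(Q)) (h3 : σ ^ 3 = 1) (hr : τ * σ * τ⁻¹ = σ⁻¹)
    (hN : Q ≤ 𝓝(N)) (h1 : ∀ x ∈ Q, x * (σ * x * σ⁻¹) * (σ * (σ * x * σ⁻¹) * σ⁻¹) ∈ N)
    (ht : ⁅Q, zpowers τ⁆ ≤ N) (hc : (♯Q).Coprime 3) : ⁅Q, Q⁆ ≤ N := by
  obtain ⟨F, hF⟩ : ∃ F : G → QT N, F = mel (qh N) := ⟨_, rfl⟩
  obtain ⟨s, hs⟩ : ∃ s : G → G, ∀ x, s x = σ * x * σ⁻¹ := ⟨_, fun _ => rfl⟩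
  have sm : ∀ x ∈ Q, s x ∈ Q := fun x hx => hs x ▸ conj_mem_of_mem_norm hσ hx
  have tm : ∀ x ∈ Q, τ * x * τ⁻¹ ∈ Q := fun x hx => conj_mem_of_mem_norm hτ hx
  have mul : ∀ x ∈ Q, ∀ y ∈ Q, F (x * y) = F x * F y := fun x hx y hy =>
    hF ▸ mel_mul _ (hN hx) (hN hy)
  have inv : ∀ x ∈ Q, F x⁻¹ = (F x)⁻¹ := fun x hx => hF ▸ mel_inv _ (hN hx)
  have smul : ∀ x y, s (x * y) = s x * s y := fun x y => by simp only [hs]; group
  have sinv : ∀ x, s x⁻¹ = (s x)⁻¹ := fun x => by simp only [hs]; group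
  have e1 : ∀ x ∈ Q, F x * F (s x) * F (s (s x)) = 1 := fun x hx => by
    have a := sm x hx
    rw [← mul _ hx _ a, ← mul _ (mul_mem hx a) _ (sm _ a), hF,
      qel_eq_one_iff (hN (mul_mem (mul_mem hx a) (sm _ a))), hs, hs]
    exact h1 x hx
  have e2 : ∀ x ∈ Q, F (τ * x * τ⁻¹) = F x := fun x hx => by
    rw [hF, eq_comm, qel_eq_iff (hN hx) (hN (tm x hx))]
    have := ht (commutator_mem_commutator (inv_mem hx) (mem_zpowers τ))
    rwa [commutatorElement_def, inv_inv, mul_assoc, mul_assoc, ← mul_assoc τ] at this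
  have r1 : σ * τ = τ * σ⁻¹ := by
    conv_lhs => rw [← inv_inv σ, ← hr]
    group
  have r2 : σ⁻¹ = σ * σ := by rw [inv_eq_iff_mul_eq_one, ← h3, pow_three]
  have e3 : ∀ x, s (τ * s x * τ⁻¹) = τ * x * τ⁻¹ := fun x => by
    rw [hs, hs]
    calc _ = σ * τ * σ * x * (σ * τ * σ)⁻¹ := by group
      _ = _ := by rw [r1]; group
  have e4 : ∀ x, s (τ * x * τ⁻¹) = τ * s (s x) * τ⁻¹ := fun x => by
    rw [hs, hs, hs]
    calc _ = σ * τ * x * (σ * τ)⁻¹ := by group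
      _ = τ * (σ * σ) * x * (τ * (σ * σ))⁻¹ := by rw [r1, r2]
      _ = _ := by group
  have key : ∀ x ∈ Q, F x * (F (s x))⁻¹ ∈ 𝓒(Q /ᵍ N) := fun x hx => mem_cent.2 fun w hw => by
    obtain ⟨z, hz, rfl⟩ := (mem_mim_of_le hN).1 hw
    have a := sm x hx
    have a' := tm _ a
    have c := mul_mem hx (inv_mem a')
    have d := e1 _ (mul_mem c hz)
    rw [smul _ z, smul _ (s z), mul _ c _ hz, mul _ (sm _ c) _ (sm _ hz), mul _ (sm _ (sm _ c)) _ (sm _ (sm _ hz)),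
      smul, smul, sinv, sinv, e3, e4, mul _ hx _ (inv_mem a'), mul _ a _ (inv_mem (tm _ hx)),
      mul _ (sm _ a) _ (inv_mem (tm _ (sm _ a))), inv _ a', inv _ (tm _ hx), inv _ (tm _ (sm _ a)),
      e2 _ a, e2 _ hx, e2 _ (sm _ a), ← e1 z hz, mul_inv_cancel, one_mul, mul_left_inj,
      ← mul_assoc, mul_left_inj] at d
    rw [← hF]
    conv_lhs => rw [← d]
    group
  refine comm_le_of_quo_cent hN hN fun w hw => ?_
  obtain ⟨x, hx, rfl⟩ := (mem_mim_of_le hN).1 hw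
  rw [← hF]
  have a := key x hx
  have c := key _ (sm x hx)
  have d := e1 x hx
  have m : F x ∈ Q /ᵍ N := hF ▸ mel_mem_mim _ hx
  generalize hu : F x * (F (s x))⁻¹ = u at a
  generalize hv : F (s x) * (F (s (s x)))⁻¹ = v at c
  rw [show F (s (s x)) = v⁻¹ * F (s x) by rw [← hv]; group,
    show F (s x) = u⁻¹ * F x by rw [← hu]; group] at d
  have i : Commute (F x) u⁻¹ := mem_cent.1 (inv_mem a) _ m
  have j : Commute (F x) v⁻¹ := mem_cent.1 (inv_mem c) _ m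
  have e : F x ^ 3 = (u⁻¹ * v⁻¹ * u⁻¹)⁻¹ := by
    refine eq_inv_of_mul_eq_one_right ?_
    simpa only [mul_assoc, i.left_comm, j.left_comm, pow_three] using d
  refine zpowers_le.2 (e ▸ inv_mem (mul_mem (mul_mem (inv_mem a) (inv_mem c)) (inv_mem a)))
    (mem_zpowers_pow_iff.2 ?_)
  exact hc.symm.coprime_dvd_right ((orderOf_dvd_card_of_mem m).trans (card_mim_dvd _ _))

theorem s3_der (h : St A Q) (hA : zpowers σ ⊔ zpowers τ = A) (h3 : σ ^ 3 = 1) (h2 : τ * τ = 1)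
    (hr : τ * σ * τ⁻¹ = σ⁻¹) (hc : (♯Q).Coprime 6) (hb : b ∈ A) (h1 : b ≠ 1) :
    ⁅Q, Q⁆ ≤ ⁅Q, zpowers b⁆ := by
  have n0 : zpowers τ ≤ 𝓝(zpowers σ) := zpowers_le.2 (mem_norm_iff_cj.2 (by
    rw [cj_zpowers, hr, zpowers_inv]))
  have n1 : A ≤ 𝓝(zpowers σ) := hA ▸ sup_le le_normalizer n0
  have mσ : σ ∈ A := hA ▸ mem_sup_left (mem_zpowers σ)
  have mτ : τ ∈ A := hA ▸ mem_sup_right (mem_zpowers τ)
  obtain ⟨s, hs, t, ht, rfl⟩ := (mem_sup_norm' n0).1 (hA ▸ hb)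
  have : t = 1 ∨ t = τ := by
    obtain ⟨i, rfl⟩ := mem_zpowers_iff.1 ht
    rw [zpow_eq_zpow_emod' i (show τ ^ 2 = 1 by rw [sq, h2])]
    rcases Int.emod_two_eq_zero_or_one i with e | e <;> simp [e]
  rcases this with rfl | rfl
  · obtain ⟨J, a, c, d, e⟩ := h.exists_J hA (Or.inl n1)
    haveI := Fact.mk Nat.prime_three
    have f : (♯(zpowers σ)).Prime := by
      rw [Nat.card_zpowers, orderOf_eq_prime h3 (by rintro rfl; simp at hs; simp [hs] at h1)]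
      exact Nat.prime_three
    rw [mul_one] at h1 ⊢
    rw [← eq_zpowers_of_prime f hs h1, ]
    have g := d _ (zpowers_le.2 (h.norm mτ)) le_normalizer (mem_zpowers τ)
    rw [mim_zpowers _ g, cent_zpowers] at e
    refine le_trans ?_ a
    rw [← quo_eq_bot_iff ((der_le Q).trans c), quo_comm c c]
    exact CA.FpfRed.comm_of_inv fun x hx => CA.FpfRed.inv_of_fpf (odd_mim (Nat.coprime_two_right.1
      (hc.coprime_dvd_right (by norm_num))) _) (mel_mem_normalizer _ g (h.norm mτ))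
      (fun y hy i => mem_bot.1 (e ▸ ⟨hy, mem_cent1.2 (mul_inv_eq_iff_eq_mul.1 i).symm⟩)) hx
      (by rw [← mel_mul _ g g, h2, mel_one, one_mul, mul_one])
  obtain ⟨J, a, c, d, e⟩ := h.exists_J (X := zpowers (s * t)) (Y := zpowers σ) (le_antisymm
    (sup_le (zpowers_le.2 hb) (zpowers_le.2 mσ)) (hA ▸ sup_le le_sup_right (zpowers_le.2 (by
      simpa using mul_mem (mem_sup_right (S := zpowers (s * t)) (inv_mem hs))
        (mem_sup_left (mem_zpowers (s * t))))))) (Or.inr n1)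
  have g := d _ (zpowers_le.2 (h.norm mσ)) le_normalizer (mem_zpowers σ)
  rw [mim_zpowers _ g, cent_zpowers] at e
  refine s3_core (h.norm mσ) (h.norm hb) h3 ?_ (le_norm_comm_left _ _) (fun x hx => a ?_) le_rfl
    (hc.coprime_dvd_right (by norm_num))
  · obtain ⟨i, rfl⟩ := mem_zpowers_iff.1 hs
    calc _ = σ ^ i * (t * σ * t⁻¹) * (σ ^ i)⁻¹ := by group
      _ = _ := by rw [hr]; group
  obtain ⟨y, -, hy⟩ := CA.Frob2.exists_commutator_eq (mel_mem_normalizer _ g (h.norm mσ)) e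
    (mel_mem_mim _ hx)
  have i := mul_mem (c hx) g
  rw [show x * (σ * x * σ⁻¹) * (σ * (σ * x * σ⁻¹) * σ⁻¹) = (x * σ) ^ 3 * (σ ^ 3)⁻¹ by
    rw [pow_three]; group, h3,
    inv_one, mul_one, ← qel_eq_one_iff (pow_mem i 3), mel_pow _ i, mel_mul _ (c hx) g, ← hy,
    commutatorElement_def, inv_mul_cancel_right, conj_pow, ← mel_pow _ g, h3, mel_one]
  simp

variable [IsAlgClosed k] [FiniteDimensional k W]

theorem Md.s3 (m : Md l ρ A H) (hA : zpowers σ ⊔ zpowers τ = A) (h3 : σ ^ 3 = 1) (h2 : τ * τ = 1)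
    (hr : τ * σ * τ⁻¹ = σ⁻¹) (hc : (♯H).Coprime 6) (h6 : ♯A ∣ 2 * 3) : ⁅H, H⁆ = ⊥ := by
  have hK := kp_of Nat.prime_two Nat.prime_three h6 (Or.inl (by norm_num))
  have hH := m.nil hK
  refine comm_eq_bot_iff.2 (comm_iff_le_cent.1 (comm_of_nil_syl hH fun q hq hd => ?_))
  obtain ⟨P, hP⟩ := syl_exists hq H
  refine ⟨P, hP, comm_iff_le_cent.2 (comm_eq_bot_iff.1 (eq_bot_iff.2 (m.ker ▸ ?_)))⟩
  have hk := m.chc q
  rw [← hP.eq_core_of_nil hH] at hk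
  have a := m.st.norm.trans (hP.norm_of_nil hH)
  have hS := m.st.mono hP.le a
  have hD := hP.le.trans m.le
  have n0 : P ⊔ A ≤ 𝓝(P) := sup_le le_normalizer a
  by_contra h
  obtain ⟨M, m1, ⟨m2, m3⟩, m4⟩ := exists_minimal_le
    (P := fun L => P ⊔ A ≤ 𝓝(L) ∧ ¬ L ≤ rker ρ) ⟨norm_comm n0 n0, h⟩
  have m5 := m1.trans (der_le P)
  have m6 := m5.trans hD
  have m7 := le_sup_right.trans m2
  have c : ⁅M, P⁆ ≤ rker ρ := by
    by_contra e
    exact (comm_lt_of_nil (hP.pi.isNilpotent hq) le_rfl m5 (le_sup_left.trans m2) (by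
      rintro rfl; exact m3 bot_le)).ne (m4 _ ⟨norm_comm m2 n0, e⟩
      (comm_le_left (le_sup_left.trans m2)))
  have d := (comm_mono le_rfl m5).trans c
  obtain ⟨μ, hμ⟩ := not_forall.1 fun e => m3 (le_rker_of_Wt m6 d
    (natCast_ne_zero_of_dvd (card_dvd m5) hk) m6 e)
  have h0 := stab_ne_bot m6 m.leA m7 d m.chA m.fix (χ := μ) fun e => hμ (e ▸ bot_le)
  have hB : A ⊓ wstab M μ ≤ D := inf_le_left.trans m.leA
  have hI := (inv_Wt m6 hD c μ).sup_left hD hB (inv_Wt' m6 hB inf_le_right)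
  have hp := (hK _ inf_le_left h0 fun e => hμ ((Wt_le_Fix m6 m.leA (e.ge.trans inf_le_right)).trans
    (Fix_anti ρ (hS.mono m5 m7).comm.ge))).1
  obtain ⟨b, b1, b2⟩ := exists_ne_one h0
  have := ((m1.trans (s3_der hS hA h3 h2 hr (hc.coprime_dvd_left (card_dvd hP.le)) b1.1 b2)).trans
    (comm_mono le_rfl (zpowers_le.2 b1))).trans (x1 (ρ := res ρ (sup_le hD hB) _ hI) (ct_prime hp)
    le_sup_right (natCast_ne_zero_of_dvd (card_dvd inf_le_left) m.chA)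
    (Fix_res_eq_bot _ hI le_sup_right (wt_fix m6 m.leA m7 d m.chA m.fix μ)) hq (fun e i => ?_)
    le_sup_left hP.pi hk (inf_le_left.trans a) (cop_mono hS.cop le_rfl inf_le_left))
  · exact hμ fun w hw x hx => ((mem_rker_res _ hI).1 (this hx)).2 w hw
  have j := not_dvd_of_coprime hq hc hd
  have i1 := Nat.le_of_dvd hp.pos i
  have i2 := Nat.le_self_pow e.succ_ne_zero q
  have i3 : ♯(A ⊓ wstab M μ) ≤ 3 := by
    rcases hp.dvd_mul.1 ((card_dvd inf_le_left).trans h6) with f | f <;>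
      have := Nat.le_of_dvd (by norm_num) f <;> omega
  have := hq.two_le
  exact j (by rw [show q = 2 by simp only [Nat.succ_eq_add_one] at i2; omega]; norm_num)

end

theorem sym3 {G : Type u} [Group G] [Finite G] {A H : Subgroup G} (h : St A H)
    (hA : ∃ σ τ, zpowers σ ⊔ zpowers τ = A ∧ σ ^ 3 = 1 ∧ τ * τ = 1 ∧ τ * σ * τ⁻¹ = σ⁻¹)
    (hc : (♯H).Coprime 6) (h6 : ♯A ∣ 2 * 3) : ⁅H, H⁆ ≤ 𝓕(H) := by
  refine reduce (P := fun A H L => (∃ σ τ, zpowers σ ⊔ zpowers τ = A ∧ σ ^ 3 = 1 ∧ τ * τ = 1 ∧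
    τ * σ * τ⁻¹ = σ⁻¹) ∧ (♯H).Coprime 6 ∧ ♯A ∣ 2 * 3 ∧ L = ⁅H, H⁆) ?_
    (fun A H L D l _ W _ _ _ ρ m ⟨⟨σ, τ, a, b, c, d⟩, e, f, g⟩ => g.trans (m.s3 a b c d e f))
    h (der_le H) (norm_der H) ⟨hA, hc, h6, rfl⟩
  rintro Γ _ _ _ H _ N a b ⟨⟨σ, τ, rfl, c, d, e⟩, f, g, rfl⟩
  have i := a (mem_sup_left (mem_zpowers σ))
  have j := a (mem_sup_right (mem_zpowers τ))
  exact ⟨⟨mel (qh N) σ, mel (qh N) τ, by
    rw [quo_sup (zpowers_le.2 i) (zpowers_le.2 j), mim_zpowers _ i, mim_zpowers _ j],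
    by rw [← mel_pow _ i, c, mel_one], by rw [← mel_mul _ j j, d, mel_one],
    by rw [← mel_conj _ j i, e, mel_inv _ i]⟩, f.coprime_dvd_left (card_mim_dvd _ _),
    (card_mim_dvd _ _).trans g, quo_comm b b⟩

end CA.HS
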