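import Cfsg.Agent.Lib.Solv.HS5
import Cfsg.Agent.Lib.Solv.MaxC
import Cfsg.Agent.S0021

/-! Coprime action of an elementary abelian group of order `q²` with abelian fixed-point groups:
the minimal non-solvable configuration. -/

set_option autoImplicit false
set_option linter.unusedSectionVars false
set_option linter.unusedVariables false

namespace CA.Mart
open Subgroup Cfsg CA.BG CA.OQuo CA.HS
open scoped commutatorElement Pointwise

variable {G : Type*} [Group G] [Finite G] {π : Set ℕ} {p q r : ℕ}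
  {A H H' K L M N P R S U V W X Y : Subgroup G}

/-- The Glauberman-Thompson theorem, ambient form. -/
theorem gt_amb (hp : p.Prime) (hp2 : p ≠ 2) (hP : Syl p P N)
    (h : HasPC p (N ⊓ 𝓝(H6J.Z (H6J.J 0 P)) : Subgroup G)) : HasPC p N := by
  haveI := Fact.mk hp
  obtain ⟨S, hS⟩ := hP.exists_sylow hp
  have h1 : (S : Subgroup N) = P.subgroupOf N := by
    rw [← hS]; exact (comap_map_eq_self_of_injective N.subtype_injective _).symm
  refine (hasPC_iff hp).2 (H6NPC.glauberman_thompson hp2 (dvd_zero p) (AmbSyl.sylIn_top S) ?_)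
  have h2 := (H6J.J_le 0 P).trans hP.le
  rw [h1, H6J.J_subgroupOf hP.le, H6J.Z_subgroupOf h2,
    ← subgroupOf_normalizer_eq (inf_le_left.trans h2), ← inf_subgroupOf_left]
  exact PRes.hasNPC_of_equiv ((hasPC_iff hp).1 h) (subgroupOfEquivOfLe inf_le_left).symm

/-- lines of `A` -/
def Ln (q : ℕ) (A X : Subgroup G) : Prop := X ≤ A ∧ ♯X = q

/-- invariant subgroups of `K` -/
def Iv (A K H : Subgroup G) : Prop := H ≤ K ∧ A ≤ 𝓝(H)

structure Cx (q : ℕ) (A K : Subgroup G) : Prop where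
  prime : q.Prime
  el : El q 2 A
  norm : A ≤ 𝓝(K)
  cop : (♯K).Coprime ♯A
  fpf : K ⊓ 𝓒(A) = ⊥
  ab : ∀ X, Ln q A X → IsMulCommutative (K ⊓ 𝓒(X) : Subgroup G)
  solv : ∀ H, H < K → A ≤ 𝓝(H) → Group.IsSolvable H
  simp : ∀ N, N ≤ K → N ≠ ⊥ → A ≤ 𝓝(N) → K ≤ 𝓝(N) → N = K
  ns : ¬ Group.IsSolvable K

theorem Iv.inf (h1 : Iv A K H) (h2 : A ≤ 𝓝(L)) : Iv A K (H ⊓ L) :=
  ⟨inf_le_left.trans h1.1, norm_inf h1.2 h2⟩

theorem Iv.sup (h1 : Iv A K H) (h2 : Iv A K L) : Iv A K (H ⊔ L) :=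
  ⟨sup_le h1.1 h2.1, norm_sup h1.2 h2.2⟩

theorem Iv.core (h : Iv A K H) (π : Set ℕ) : Iv A K 𝓞(π, H) :=
  ⟨(core_le _ _).trans h.1, norm_core _ h.2⟩

theorem Iv.fit (h : Iv A K H) : Iv A K 𝓕(H) := ⟨(fit_le _).trans h.1, norm_fit h.2⟩

theorem Iv.center (h : Iv A K H) : Iv A K 𝓩(H) := h.inf (norm_cent h.2)

namespace Cx
variable (c : Cx q A K)
include c

theorem top : Iv A K K := ⟨le_rfl, c.norm⟩

theorem solvA : Group.IsSolvable A := solv_of_comm c.el.comm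

theorem nX (hX : Ln q A X) : A ≤ 𝓝(𝓒(X)) := norm_cent (norm_of_comm c.el.comm hX.1)

theorem copH (h : Iv A K H) : (♯H).Coprime ♯A := cop_mono c.cop h.1 le_rfl

theorem gen (h : Iv A K H) (h1 : ∀ X, Ln q A X → H ⊓ 𝓒(X) ≤ L) : H ≤ L :=
  coprime_elem_gen_cent c.prime (k := 0) c.el h.2 (c.copH h) fun X a b => h1 X ⟨a, b⟩

theorem two (hX : Ln q A X) (hY : Ln q A Y) (h : X ≠ Y) (hH : H ≤ K) (h1 : H ≤ 𝓒(X)) :
    H ⊓ 𝓒(Y) = ⊥ := by
  refine BG.eq_bot_mono (le_inf (inf_le_left.trans hH) ?_) c.fpf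
  rw [← c.el.sup_eq c.prime hX.2 hY.2 hX.1 hY.1 h]
  exact le_cent_sup (inf_le_left.trans h1) inf_le_right

theorem third (hX : Ln q A X) (hY : Ln q A Y) : ∃ Z, Ln q A Z ∧ Z ≠ X ∧ Z ≠ Y := by
  obtain ⟨Z, a, b, h⟩ := El.exists_ne_two (k := 0) c.prime c.el hX.2 hY.2
  exact ⟨Z, ⟨a, b⟩, h⟩

theorem solv_norm (h : Iv A K U) (h0 : U ≠ ⊥) (hs : Group.IsSolvable U) :
    Group.IsSolvable (K ⊓ 𝓝(U) : Subgroup G) := by
  refine c.solv _ (lt_of_le_of_ne inf_le_left fun e => c.ns ?_) (norm_inf c.norm (norm_norm h.2))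
  rwa [← c.simp U h.1 h0 h.2 (e.ge.trans inf_le_right)]

theorem iv_norm (h : A ≤ 𝓝(U)) : Iv A K (K ⊓ 𝓝(U)) := c.top.inf (norm_norm h)

theorem le_hall (h : Iv A K H) (hs : Group.IsSolvable H) (hM : Hall π M H) (hA : A ≤ 𝓝(M))
    (hL : L ≤ H) (hπ : IsPi π L) (hn : A ≤ 𝓝(L)) : L ≤ M := by
  obtain ⟨x, hx, h1⟩ := coprime_Hall_cent_le h.2 (c.copH h) hs c.solvA hM hA hL hπ hn
  have : x = 1 := mem_bot.1 (c.fpf ▸ mem_inf.2 ⟨h.1 hx.1, hx.2⟩)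
  rwa [this, cj_one] at h1

theorem le_syl (hp : p.Prime) (h : Iv A K H) (hP : Syl p P H) (hA : A ≤ 𝓝(P)) (hL : L ≤ H)
    (hπ : IsPi {p} L) (hn : A ≤ 𝓝(L)) : L ≤ P := by
  obtain ⟨Q, h1, h2, h3⟩ := coprime_Sylow_subset hp h.2 (c.copH h) (Or.inl c.solvA) hL hπ hn
  obtain ⟨x, hx, h4⟩ := coprime_Sylow_trans hp h.2 (c.copH h) (Or.inl c.solvA) h1 h2 hP hA
  have : x = 1 := mem_bot.1 (c.fpf ▸ mem_inf.2 ⟨h.1 hx.1, hx.2⟩)
  rw [this, cj_one] at h4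
  exact h4 ▸ h3

theorem syl_inf (hp : p.Prime) (h : Iv A K H) (hP : Syl p P K) (hA : A ≤ 𝓝(P)) :
    Syl p (H ⊓ P) H := by
  obtain ⟨Q, h1, h2⟩ := coprime_Sylow_exists hp h.2 (c.copH h) (Or.inl c.solvA)
  exact h1.of_ge (hP.pi.inf_right _)
    (le_inf h1.le (c.le_syl hp c.top hP hA (h1.le.trans h.1) h1.pi h2)) inf_le_left

theorem nilq (h : Iv A K H) (hs : Group.IsSolvable H) : Group.IsNilpotent (H /ᵍ 𝓕(H)) := by
  have h1 : gi H 2 = ⊥ := ward c.prime c.prime ⟨h.2, hs, c.copH h,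
    BG.eq_bot_mono (inf_le_inf_right _ h.1) c.fpf⟩ (by rw [c.el.card, sq])
    (Or.inr fun x hx => elem_pow c.el.elem hx)
  obtain ⟨n, hn⟩ := gam_spec H
  refine (nilMod_iff (le_norm_fit H)).1 ⟨n, (hn n le_rfl).le.trans ?_⟩
  exact le_fit (gam_eq_bot_iff.1 h1) ((gam_le_lcs H 0).trans (lcs_zero H).le)
    (le_normalizer.trans (norm_gam H))

/-- a line acting without fixed points on two invariant subgroups -/
theorem nil_sup (hX : Ln q A X) (hW : Iv A K W) (hU : Iv A K U) (hn : U ≤ 𝓝(W))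
    (hs : Group.IsSolvable W) (hs' : Group.IsSolvable U) (h1 : W ⊓ 𝓒(X) = ⊥) (h2 : U ⊓ 𝓒(X) = ⊥) :
    Group.IsNilpotent (U ⊔ W : Subgroup G) := by
  refine prime_Frobenius_sol_kernel_nil (R := X) (solv_sup hs' hs hn)
    (hX.1.trans (hU.sup hW).2) (hX.2 ▸ c.prime) ?_
  rw [coprime_sup_cent (hX.1.trans hU.2) (hX.1.trans hW.2) hn
    (cop_mono c.cop (inf_le_left.trans hU.1) hX.1) (Or.inl (solv_of_le c.solvA hX.1)), h1, h2,
    bot_sup_eq]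

theorem solv_cent (hX : Ln q A X) (h : U ≤ K) (h1 : U ≤ 𝓒(X)) : Group.IsSolvable U :=
  solv_of_comm (comm_of_le (c.ab X hX) (le_inf h h1))

theorem not_hasPC (hp : p.Prime) (hd : p ∣ ♯K) : ¬ HasPC p K := by
  intro h
  by_cases h0 : 𝓞({p}ᶜ, K) = ⊥
  · refine c.ns (IsPi.isSolvable hp ?_)
    have := h.idx
    rwa [h0, relIndex_bot_left] at this
  · have := c.simp _ (core_le _ _) h0 (norm_core _ c.norm) (le_norm_core _ _)
    exact (isPi_compl_iff hp).1 (this ▸ core_pi _ K) hd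

/-- no Sylow subgroup is centralized by a line -/
theorem not_cent (hr : r.Prime) (hR : Syl r R K) (hA : A ≤ 𝓝(R)) (h0 : R ≠ ⊥) (hX : Ln q A X) :
    ¬ R ≤ 𝓒(X) := by
  intro h
  have hc : IsMulCommutative R := comm_of_le (c.ab X hX) (le_inf hR.le h)
  refine c.not_hasPC hr ((hR.pi.dvd_card h0).trans (card_dvd hR.le))
    (burnside_hasPC hr hR (c.gen (c.iv_norm hA) fun Y hY => ?_))
  by_cases e : Y = X
  · subst e
    exact cent_of_comm (c.ab Y hY) (inf_le_inf_right _ inf_le_left) (le_inf hR.le h)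
  obtain ⟨Z, hZ, h1, h2⟩ := c.third hX hY
  have hU := (c.iv_norm hA).inf (c.nX hY)
  have hn := c.nil_sup hZ ⟨hR.le, hA⟩ hU (inf_le_left.trans inf_le_right) (hR.pi.isSolvable hr)
    (c.solv_cent hY hU.1 inf_le_right) (c.two hX hZ h1.symm hR.le h)
    (c.two hY hZ h2.symm hU.1 inf_le_right)
  refine le_sup_left.trans ((nil_core_sup {r} hn).ge.trans (sup_le ?_ ?_))
  · rw [← (hR.of_le le_sup_right (sup_le hU.1 hR.le)).eq_core_of_nil hn]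
    exact comm_iff_le_cent.1 hc
  · exact cent_symm (cent_of_nil hn le_sup_right (core_le _ _) hR.pi (core_pi _ _))

/-- an odd Sylow subgroup meets the centralizers of all lines but at most one -/
theorem supp (hp : p.Prime) (hp2 : p ≠ 2) (hP : Syl p P K) (hA : A ≤ 𝓝(P)) (h0 : P ≠ ⊥)
    (hX : Ln q A X) (hY : Ln q A Y) (h : X ≠ Y) (h1 : P ⊓ 𝓒(X) = ⊥) (h2 : P ⊓ 𝓒(Y) = ⊥) : False := by
  haveI := Fact.mk hp
  have hd := hP.pi.dvd_card h0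
  refine c.not_hasPC hp (hd.trans (card_dvd hP.le)) (gt_amb hp hp2 hP ?_)
  have h3 := (inf_le_left : H6J.Z _ ≤ _).trans (H6J.J_le 0 P)
  have h4 : 𝓝(P) ≤ 𝓝(H6J.Z (H6J.J 0 P)) :=
    (H6J.normalizer_le_normalizer_J _ _).trans (H6J.normalizer_le_normalizer_Z _)
  have hN := c.iv_norm (hA.trans h4)
  have hs := c.solv_norm ⟨h3.trans hP.le, hA.trans h4⟩
    (H6J.Z_ne_bot ((hP.pi.isPGroup hp).to_le (H6J.J_le _ _)) (H6J.J_ne_bot (dvd_zero p) hd))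
    ((hP.pi.of_le h3).isSolvable hp)
  set N := K ⊓ 𝓝(H6J.Z (H6J.J 0 P))
  have hPN : Syl p P N := hP.of_le (le_inf hP.le (le_normalizer.trans h4)) inf_le_left
  have hM := hN.inf (norm_norm hA)
  obtain ⟨T, hT, hAT⟩ := coprime_Hall_exists {p}ᶜ hM.2 (c.copH hM) (solv_of_le hs inf_le_left)
  have hT' : Iv A K T := ⟨hT.le.trans hM.1, hAT⟩
  have hTP : T ≤ 𝓒(P) := c.gen hT' fun Z hZ => by
    have hU := hT'.inf (c.nX hZ)
    obtain ⟨W, hW, e, h5⟩ : ∃ W, Ln q A W ∧ Z ≠ W ∧ P ⊓ 𝓒(W) = ⊥ := by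
      by_cases e : Z = X
      · exact ⟨Y, hY, e ▸ h, h2⟩
      · exact ⟨X, hX, e, h1⟩
    have hn := c.nil_sup hW ⟨hP.le, hA⟩ hU (inf_le_left.trans (hT.le.trans inf_le_right))
      (hP.pi.isSolvable hp) (c.solv_cent hZ hU.1 inf_le_right) h5
      (c.two hZ hW e hU.1 inf_le_right)
    exact cent_symm (cent_of_nil hn le_sup_right le_sup_left hP.pi (hT.pi.inf_left _))
  have h5 := nil_quo_frattini hp hPN (fit_le N) le_rfl le_normalizer (le_norm_fit N) (c.nilq hN hs)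
  have h6 : Syl p P (N ⊓ 𝓝(P)) := hPN.of_le (le_inf hPN.le le_normalizer) inf_le_left
  have hO : N ≤ 𝓝(𝓞({p}ᶜ, 𝓕(N))) := norm_core _ (le_norm_fit N)
  have h7 : P ⊔ (T ⊔ 𝓞({p}ᶜ, 𝓕(N))) = N := by
    refine le_antisymm (sup_le hPN.le (sup_le (hT.le.trans inf_le_left)
      ((core_le _ _).trans (fit_le _)))) (h5.ge.trans (sup_le ?_ ?_))
    · refine (nil_core_sup {p} (fit_nil N)).ge.trans (sup_le (le_sup_of_le_left ?_)
        (le_sup_of_le_right le_sup_right))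
      rw [core_fit hp]; exact hPN.core_le
    · rw [← h6.sup_compl hT]
      exact sup_le_sup_left le_sup_left _
  have h8 : P ≤ 𝓝(T ⊔ 𝓞({p}ᶜ, 𝓕(N))) :=
    norm_sup (norm_of_cent (cent_symm hTP)) (hPN.le.trans hO)
  refine hasPC_of_normal (le_sup_right.trans h7.le) (h7.ge.trans (sup_le h8 le_normalizer))
    (hT.pi.sup (core_pi _ _) (hT.le.trans (inf_le_left.trans hO))) ?_
  have h9 := hP.pi.relIndex (T ⊔ 𝓞({p}ᶜ, 𝓕(N)))
  rwa [← relIndex_sup_norm h8, h7] at h9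

end Cx

/-- maximal invariant `π`-subgroups -/
structure Mx (π : Set ℕ) (A K H : Subgroup G) : Prop where
  iv : Iv A K H
  pi : IsPi π H
  max : ∀ L, Iv A K L → IsPi π L → H ≤ L → L = H

theorem exists_mx (h : Iv A K L) (hπ : IsPi π L) : ∃ H, L ≤ H ∧ Mx π A K H := by
  obtain ⟨H, h1, h2, h3⟩ := exists_maximal_ge (P := fun H => Iv A K H ∧ IsPi π H) ⟨h, hπ⟩
  exact ⟨H, h1, h2.1, h2.2, fun L a b => h3 L ⟨a, b⟩⟩

/-- two primes whose invariant Sylow subgroups do not permute -/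
structure Tw (π : Set ℕ) (p r : ℕ) (A K P R : Subgroup G) : Prop where
  hp : p.Prime
  hr : r.Prime
  ne : p ≠ r
  mem : ∀ s, s ∈ π ↔ s = p ∨ s = r
  sP : Syl p P K
  sR : Syl r R K
  nP : A ≤ 𝓝(P)
  nR : A ≤ 𝓝(R)
  no : ∀ H, Iv A K H → IsPi π H → P ≤ H → R ≤ H → False

theorem Tw.symm (t : Tw π p r A K P R) : Tw π r p A K R P :=
  ⟨t.hr, t.hp, t.ne.symm, fun s => (t.mem s).trans or_comm, t.sR, t.sP, t.nR, t.nP,
    fun H a b c d => t.no H a b d c⟩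

theorem Tw.piP (t : Tw π p r A K P R) (h : IsPi {p} U) : IsPi π U := h.sub ((t.mem p).2 (Or.inl rfl))

theorem Tw.ivP (t : Tw π p r A K P R) : Iv A K P := ⟨t.sP.le, t.nP⟩

theorem Tw.core (t : Tw π p r A K P R) (h : IsPi π H) : 𝓞({r}ᶜ, H) = 𝓞({p}, H) :=
  core_congr fun s hs hd => by
    rcases (t.mem s).1 (h s hs hd) with rfl | rfl
    · simpa using t.ne
    · simpa using t.ne.symm

theorem Tw.ne_bot (t : Tw π p r A K P R) : P ≠ ⊥ := fun e =>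
  t.no R t.symm.ivP (t.symm.piP t.sR.pi) (e ▸ bot_le) le_rfl

theorem Tw.not_norm (t : Tw π p r A K P R) : ¬ R ≤ 𝓝(P) := fun h =>
  t.no (R ⊔ P) (t.symm.ivP.sup t.ivP) ((t.symm.piP t.sR.pi).sup (t.piP t.sP.pi) h)
    le_sup_right le_sup_left

namespace Cx
variable (c : Cx q A K)
include c

theorem mx_solv (t : Tw π p r A K P R) (m : Mx π A K H) : Group.IsSolvable H :=
  c.solv H (lt_of_le_of_ne m.iv.1 fun e => t.no H m.iv m.pi (e ▸ t.sP.le) (e ▸ t.sR.le)) m.iv.2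

theorem le_mx (t : Tw π p r A K P R) (m : Mx π A K H) (hU : U ≤ H) (h0 : U ≠ ⊥) (hA : A ≤ 𝓝(U))
    (hn : H ≤ 𝓝(U)) (hL : Iv A K L) (hπ : IsPi π L) (h : L ≤ 𝓝(U)) : L ≤ H := by
  have hs := c.solv_norm ⟨hU.trans m.iv.1, hA⟩ h0 (solv_of_le (c.mx_solv t m) hU)
  have hN := c.iv_norm hA
  obtain ⟨M, h1, h2, h3⟩ := coprime_Hall_subset hN.2 (c.copH hN) hs c.solvA (le_inf m.iv.1 hn)
    m.pi m.iv.2
  rw [← m.max M ⟨h1.le.trans hN.1, h2⟩ h1.pi h3]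
  exact c.le_hall hN hs h1 h2 (le_inf hL.1 h) hπ hL.2

theorem exists_mx_norm (hU : Iv A K U) (h0 : U ≠ ⊥) (hs : Group.IsSolvable U) (π : Set ℕ) :
    ∃ H, Mx π A K H ∧ ∀ L, Iv A K L → IsPi π L → L ≤ 𝓝(U) → L ≤ H := by
  have hs' := c.solv_norm hU h0 hs
  have hN := c.iv_norm hU.2
  obtain ⟨M, h1, h2⟩ := coprime_Hall_exists π hN.2 (c.copH hN) hs'
  obtain ⟨H, h3, m⟩ := exists_mx ⟨h1.le.trans hN.1, h2⟩ h1.pi
  exact ⟨H, m, fun L a b d => (c.le_hall hN hs' h1 h2 (le_inf a.1 d) b a.2).trans h3⟩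

theorem b1 (t : Tw π p r A K P R) (m : Mx π A K H) (m' : Mx π A K H') (h0 : 𝓞({r}, H) ≠ ⊥)
    (h1 : 𝓩(𝓞({r}, H)) ≤ H') (hU : U ≤ H') (hUp : IsPi {p} U) (hUH : U ≤ H) (hn : H ≤ 𝓝(U)) :
    U ≤ 𝓞({p}, H') := by
  have hZ : 𝓝(H) ≤ 𝓝(𝓩(𝓞({r}, H))) := (norm_le_norm_core _ _).trans (norm_center _)
  have h2 : H' ⊓ 𝓝(𝓩(𝓞({r}, H))) ≤ H :=
    c.le_mx t m (inf_le_left.trans (core_le _ _)) ((core_pi _ _).center_ne_bot h0) (m.iv.2.trans hZ)
      (le_normalizer.trans hZ) (m'.iv.inf (norm_norm (m.iv.2.trans hZ))) (m'.pi.inf_left _)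
      inf_le_right
  rw [← t.core m'.pi]
  exact (le_core (hUp.ne t.ne) (le_inf hU (hUH.trans (le_normalizer.trans hZ))) (h2.trans hn)).trans
    (p'core_norm_pgroup t.hr (c.mx_solv t m') ((core_pi _ _).inf_left _) h1)

theorem b2 (t : Tw π p r A K P R) (m : Mx π A K H) (m' : Mx π A K H') (h0 : 𝓞({p}, H) ≠ ⊥)
    (h0' : 𝓞({r}, H) ≠ ⊥) (h1 : 𝓩(𝓞({p}, H)) ≤ H') (h1' : 𝓩(𝓞({r}, H)) ≤ H') :
    𝓞({p}, H') ≠ ⊥ ∧ 𝓞({r}, H') ≤ H := by
  have hZ : 𝓝(H) ≤ 𝓝(𝓩(𝓞({p}, H))) := (norm_le_norm_core _ _).trans (norm_center _)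
  have h2 := c.b1 t m m' h0' h1' h1 ((core_pi _ _).inf_left _) (inf_le_left.trans (core_le _ _))
    (le_normalizer.trans hZ)
  have h3 := (core_pi _ _).center_ne_bot h0
  refine ⟨ne_bot_mono h2 h3, c.le_mx t m (inf_le_left.trans (core_le _ _)) h3 (m.iv.2.trans hZ)
    (le_normalizer.trans hZ) (m'.iv.core _) (t.symm.piP (core_pi _ _)) (norm_of_cent ?_)⟩
  refine le_cent_mono (core_cent_core {r} H') le_rfl ?_
  rwa [t.core m'.pi]

theorem bender (t : Tw π p r A K P R) (m : Mx π A K H) (m' : Mx π A K H') (h0 : 𝓞({p}, H) ≠ ⊥)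
    (h0' : 𝓞({r}, H) ≠ ⊥) (h1 : 𝓩(𝓞({p}, H)) ≤ H') (h1' : 𝓩(𝓞({r}, H)) ≤ H') : H' = H := by
  obtain ⟨a1, a2⟩ := c.b2 t m m' h0 h0' h1 h1'
  obtain ⟨a3, a4⟩ := c.b2 t.symm m m' h0' h0 h1' h1
  obtain ⟨-, a5⟩ := c.b2 t.symm m' m a3 a1 (inf_le_left.trans a2) (inf_le_left.trans a4)
  have e : 𝓞({p}, H) = 𝓞({p}, H') := le_antisymm
    (c.b1 t m m' h0' h1' a5 (core_pi _ _) (core_le _ _) (le_norm_core _ _))
    (c.b1 t m' m a3 (inf_le_left.trans a2) a4 (core_pi _ _) (core_le _ _) (le_norm_core _ _))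
  exact (m'.max H m.iv m.pi (c.le_mx t m (core_le _ _) h0 (norm_core _ m.iv.2) (le_norm_core _ _)
    m'.iv m'.pi (e ▸ le_norm_core _ _))).symm

theorem cent_le (t : Tw π p r A K P R) (m : Mx π A K H) (h0 : 𝓞({p}, H) ≠ ⊥)
    (h0' : 𝓞({r}, H) ≠ ⊥) (hY : Ln q A Y) (h : 𝓕(H) ⊓ 𝓒(Y) ≠ ⊥) : P ⊓ 𝓒(Y) ≤ H := by
  have hV := m.iv.fit.inf (c.nX hY)
  obtain ⟨H', m', h1⟩ := c.exists_mx_norm hV h (c.solv_cent hY hV.1 inf_le_right) π
  have key : ∀ {p r P R}, Tw π p r A K P R → 𝓩(𝓞({p}, H)) ≤ H' := fun {p r P R} t => by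
    refine h1 _ (m.iv.core _).center (t.piP ((core_pi _ _).inf_left _))
      (norm_of_cent (le_cent_mono (K := 𝓕(H)) ?_ le_rfl inf_le_left))
    rw [← nil_core_sup {p} (fit_nil H), core_fit t.hp]
    exact le_cent_sup inf_le_right (le_cent_mono (core_cent_core {p} H) inf_le_left (core_fit_le _ _))
  rw [← c.bender t m m' h0 h0' (key t) (key t.symm)]
  exact h1 _ (t.ivP.inf (c.nX hY)) (t.piP (t.sP.pi.inf_left _)) (norm_of_cent
    (cent_of_comm (c.ab Y hY) (inf_le_inf_right _ t.sP.le) (le_inf hV.1 inf_le_right)))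

theorem norm_sup_core (t : Tw π p r A K P R) (m : Mx π A K H) (hS : Syl p S H) :
    H ≤ 𝓝(S ⊔ 𝓞({r}, H)) := by
  have h1 := hS.norm_of_quo_nil (le_norm_fit H) (c.nilq m.iv (c.mx_solv t m)) le_normalizer
    (le_norm_fit H)
  have h2 : 𝓕(H) ⊔ S = S ⊔ 𝓞({r}, H) := by
    refine le_antisymm (sup_le ((nil_core_sup {r} (fit_nil H)).ge.trans (sup_le ?_ ?_)) le_sup_left)
      (sup_le le_sup_right ((core_p_le_fit t.hr H).trans le_sup_left))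
    · exact (core_fit_le _ _).trans le_sup_right
    · refine (core_fit_le _ _).trans (le_sup_of_le_left ?_)
      rw [t.core m.pi]; exact hS.core_le
  rwa [h2] at h1

theorem le_core_of_cent (t : Tw π p r A K P R) (m : Mx π A K H) (hU : U ≤ H) (hp : IsPi {p} U)
    (h : U ≤ 𝓒(𝓞({r}, H))) : U ≤ 𝓞({p}, H) := by
  obtain ⟨S, hS, hUS⟩ := syl_superset t.hp hp hU
  have hn := le_norm_core {r} H
  have h1 : Syl r 𝓞({r}, H) (S ⊔ 𝓞({r}, H)) :=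
    hall_sup_normal' (hS.pi.ne t.ne) (hS.le.trans hn) (core_pi _ _)
  have h2 := burnside_hasPC t.hr (h1.normal_inf (K := (S ⊔ 𝓞({r}, H)) ⊓ 𝓒(𝓞({r}, H)))
    (norm_of_cent inf_le_right) inf_le_left)
    (le_cent_mono inf_le_right (inf_le_left.trans le_rfl) inf_le_left)
  rw [← t.core m.pi]
  exact (h2.le_core (hp.ne t.ne) (le_inf (hUS.trans le_sup_left) h)).trans (core_le_core
    (inf_le_left.trans (sup_le hS.le (core_le _ _))) (norm_inf (c.norm_sup_core t m hS) (norm_cent hn)))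

theorem syl_le (t : Tw π p r A K P R) (m : Mx π A K H) (h0 : 𝓞({p}, H) ≠ ⊥)
    (h0' : 𝓞({r}, H) ≠ ⊥) (hX : Ln q A X) (h : 𝓕(H) ⊓ 𝓒(X) = ⊥) : P ≤ H := by
  have hS := c.syl_inf t.hp m.iv t.sP t.nP
  have hS' : Iv A K (H ⊓ P) := m.iv.inf t.nP
  have hD := m.iv.core {p}
  have k1 : ∀ {X Y}, Ln q A X → Ln q A Y → 𝓕(H) ⊓ 𝓒(X) = ⊥ → Y ≠ X →
      H ⊓ P ⊓ 𝓒(Y) ≤ 𝓞({p}, H) := fun {X Y} hX hY h e => by
    have hU := hS'.inf (c.nX hY)
    have hn := c.nil_sup hX m.iv.fit hU (inf_le_left.trans (inf_le_left.trans (le_norm_fit H)))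
      (solv_of_nil (fit_nil H)) (c.solv_cent hY hU.1 inf_le_right) h
      (c.two hY hX e hU.1 inf_le_right)
    exact c.le_core_of_cent t m (inf_le_left.trans inf_le_left) (hS.pi.inf_left _)
      (cent_of_nil hn le_sup_left ((core_p_le_fit t.hr H).trans le_sup_right) (hS.pi.inf_left _)
        ((core_pi _ _).ne t.ne.symm))
  by_contra hc
  have hlt := lt_norm_of_pi t.sP.pi (lt_of_le_of_ne (inf_le_right : H ⊓ P ≤ P)
    fun e => hc (e.ge.trans inf_le_left))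
  have hQ : Iv A K (P ⊓ 𝓝(H ⊓ P)) := t.ivP.inf (norm_norm hS'.2)
  set Q := P ⊓ 𝓝(H ⊓ P)
  refine hlt.not_ge (le_inf (c.le_mx t m (core_le {p} H) h0 hD.2 (le_norm_core _ _) hQ
    (t.piP (t.sP.pi.inf_left _)) ?_) inf_le_left)
  by_cases h1 : ∀ Y, Ln q A Y → Y ≠ X → 𝓕(H) ⊓ 𝓒(Y) ≠ ⊥
  · have hc : ∀ {U}, Iv A K U → (♯U).Coprime ♯X := fun hU => cop_mono c.cop hU.1 hX.1
    have hs := solv_of_le c.solvA hX.1
    have k2 : ∀ {U V}, Iv A K U → Iv A K V → U ≤ 𝓝(V) → (∀ Y, Ln q A Y → Y ≠ X → U ⊓ 𝓒(Y) ≤ V) →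
        ⁅U, X⁆ ≤ V := fun {U V} hU hV hn h => by
      have h2 : U ≤ (U ⊓ 𝓒(X)) ⊔ V := c.gen hU fun Y hY => by
        by_cases e : Y = X
        · exact e ▸ le_sup_left
        · exact (h Y hY e).trans le_sup_right
      refine (comm_mono h2 le_rfl).trans (comm_sup_le_of_norm (inf_le_left.trans hn) le_normalizer
        (hX.1.trans hV.2) ?_ (comm_le_left (hX.1.trans hV.2)))
      rw [comm_eq_bot_iff.2 inf_le_right]; exact bot_le
    have h2 : ⁅Q, X⁆ ≤ H ⊓ P := k2 hQ hS' inf_le_right fun Y hY e =>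
      le_inf ((inf_le_inf_right _ inf_le_left).trans (c.cent_le t m h0 h0' hY (h1 Y hY e)))
        (inf_le_left.trans inf_le_left)
    have h3 : ⁅H ⊓ P, X⁆ ≤ 𝓞({p}, H) :=
      k2 hS' hD (inf_le_left.trans (le_norm_core _ _)) fun Y hY e => k1 hX hY h e
    have h4 : ⁅Q, X⁆ = 𝓞({p}, H) := by
      refine le_antisymm ?_ ?_
      · rw [← coprime_commGid (hX.1.trans hQ.2) (hc hQ) (Or.inl hs)]
        exact (comm_mono h2 le_rfl).trans h3
      · rw [← coprime_comm_eq_of_cent (hX.1.trans hD.2) (hc hD) (Or.inl hs)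
          (BG.eq_bot_mono (inf_le_inf_right _ (core_p_le_fit t.hp H)) h)]
        exact comm_mono (hS.core_le.trans hlt.le) le_rfl
    rw [← h4]
    exact le_norm_comm_left _ _
  · push Not at h1
    obtain ⟨Y, hY, e, h2⟩ := h1
    have h3 : H ⊓ P ≤ 𝓞({p}, H) := c.gen hS' fun Z hZ => by
      by_cases e' : Z = X
      · exact k1 hY hZ h2 (e' ▸ e.symm)
      · exact k1 hX hZ h e'
    rw [← le_antisymm h3 hS.core_le]
    exact inf_le_right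

theorem core_eq_bot (t : Tw π p r A K P R) (m : Mx π A K H) : 𝓞({p}, H) = ⊥ ∨ 𝓞({r}, H) = ⊥ := by
  by_contra h
  rw [not_or] at h
  by_cases h1 : ∃ X, Ln q A X ∧ 𝓕(H) ⊓ 𝓒(X) = ⊥
  · obtain ⟨X, hX, h1⟩ := h1
    exact t.no H m.iv m.pi (c.syl_le t m h.1 h.2 hX h1) (c.syl_le t.symm m h.2 h.1 hX h1)
  · push Not at h1
    exact t.no H m.iv m.pi (c.gen t.ivP fun X hX => c.cent_le t m h.1 h.2 hX (h1 X hX))
      (c.gen t.symm.ivP fun X hX => c.cent_le t.symm m h.2 h.1 hX (h1 X hX))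

theorem of_core (t : Tw π p r A K P R) (m : Mx π A K H) (h : 𝓞({r}, H) = ⊥) :
    P ≤ H ∧ H ≤ 𝓝(P) := by
  have hS := c.syl_inf t.hp m.iv t.sP t.nP
  have hS' : Iv A K (H ⊓ P) := m.iv.inf t.nP
  have h1 := c.norm_sup_core t m hS
  rw [h, sup_bot_eq] at h1
  have h0 : H ≠ ⊥ := fun e => t.ne_bot ((m.max P t.ivP (t.piP t.sP.pi) (e ▸ bot_le)).trans e)
  have h2 : H ⊓ P ≠ ⊥ := by
    refine ne_bot_mono hS.core_le ?_
    rw [← fit_eq_core t.hp ((t.symm.core m.pi).trans h)]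
    exact fit_ne_bot (c.mx_solv t m) h0
  have h3 : H ⊓ P = P := by
    by_contra e
    exact (lt_norm_of_pi t.sP.pi (lt_of_le_of_ne inf_le_right e)).not_ge (le_inf (c.le_mx t m
      inf_le_left h2 hS'.2 h1 (t.ivP.inf (norm_norm hS'.2)) (t.piP (t.sP.pi.inf_left _))
      inf_le_right) inf_le_left)
  exact ⟨h3.ge.trans inf_le_left, h3 ▸ h1⟩

theorem mx_or (t : Tw π p r A K P R) (m : Mx π A K H) : H ≤ 𝓝(P) ∨ H ≤ 𝓝(R) :=
  (c.core_eq_bot t m).symm.imp (fun h => (c.of_core t m h).2) fun h => (c.of_core t.symm m h).2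

theorem dich (t : Tw π p r A K P R) (hU : Iv A K U) (h0 : U ≠ ⊥) (hs : Group.IsSolvable U) :
    R ⊓ 𝓝(U) ≤ 𝓝(P) ∨ P ⊓ 𝓝(U) ≤ 𝓝(R) := by
  obtain ⟨H, m, h⟩ := c.exists_mx_norm hU h0 hs π
  exact (c.mx_or t m).imp
    (h _ (t.symm.ivP.inf (norm_norm hU.2)) (t.symm.piP (t.sR.pi.inf_left _)) inf_le_right).trans
    (h _ (t.ivP.inf (norm_norm hU.2)) (t.piP (t.sP.pi.inf_left _)) inf_le_right).trans

theorem cent_bot (t : Tw π p r A K P R) : R ⊓ 𝓒(P) = ⊥ := by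
  obtain ⟨H, h1, m⟩ := exists_mx t.ivP (t.piP t.sP.pi)
  rcases c.core_eq_bot t m with h | h
  · exact (t.no H m.iv m.pi h1 (c.of_core t.symm m h).1).elim
  have h2 := (c.of_core t m h).2
  have h3 : R ⊓ 𝓒(P) ≤ H := c.le_mx t m h1 t.ne_bot t.nP h2 (t.symm.ivP.inf (norm_cent t.nP))
    (t.symm.piP (t.sR.pi.inf_left _)) (norm_of_cent inf_le_right)
  refine BG.eq_bot_mono (c.le_core_of_cent t.symm m h3 (t.sR.pi.inf_left _) ?_) h
  exact le_cent_mono inf_le_right le_rfl ((t.sP.of_le h1 m.iv.1).core_le)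

theorem norm_bot (t : Tw π p r A K P R) : R ⊓ 𝓝(P) = ⊥ := by
  by_contra h0
  have hR : Iv A K (R ⊓ 𝓝(P)) := t.symm.ivP.inf (norm_norm t.nP)
  have hpi : IsPi {r} (R ⊓ 𝓝(P)) := t.sR.pi.inf_left _
  have h1 : P ⊓ 𝓝(R) ≤ 𝓒(R ⊓ 𝓝(P)) := comm_eq_bot_iff.1 (BG.eq_bot_mono (le_inf
    ((comm_mono inf_le_left le_rfl).trans (comm_le_left inf_le_right))
    ((comm_mono le_rfl inf_le_left).trans (comm_le_right inf_le_right)))
    (t.sP.pi.inf_eq_bot (t.sR.pi.ne t.ne.symm)))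
  have h2 : P ⊓ 𝓝(R ⊓ 𝓝(P)) ≤ 𝓝(R) :=
    (c.dich t hR h0 (hpi.isSolvable t.hr)).resolve_left fun h =>
      (lt_norm_of_pi t.sR.pi (lt_of_le_of_ne (inf_le_left : R ⊓ 𝓝(P) ≤ R) fun e =>
        t.not_norm (e.ge.trans inf_le_right))).not_ge (le_inf inf_le_left h)
  have k1 : ∀ Y, Ln q A Y → ¬ R ⊓ 𝓒(Y) ≤ 𝓝(P) → P ⊓ 𝓒(Y) = ⊥ := fun Y hY h => by
    by_contra e
    have hU := t.ivP.inf (c.nX hY)
    have h3 : P ⊓ 𝓝(P ⊓ 𝓒(Y)) ≤ 𝓝(R) :=
      (c.dich t hU e (c.solv_cent hY hU.1 inf_le_right)).resolve_left fun h' => h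
        (le_trans (le_inf inf_le_left (norm_of_cent (cent_of_comm (c.ab Y hY)
          (inf_le_inf_right _ t.sR.le) (inf_le_inf_right _ t.sP.le)))) h')
    have h4 : P ⊓ 𝓒(Y) ≤ P ⊓ 𝓒(R ⊓ 𝓝(P)) := le_inf inf_le_left
      (le_trans (le_inf inf_le_left (le_trans (le_inf inf_le_left le_normalizer) h3)) h1)
    refine h0 (BG.eq_bot_mono (le_inf inf_le_left ?_) (c.cent_bot t))
    refine coprime_nil_faithful_cent_stab inf_le_right (t.sP.pi.coprime_ne hpi t.ne)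
      (t.sP.pi.isNilpotent t.hp) (le_trans (le_inf inf_le_left ?_) h1)
    exact le_trans (inf_le_inf_left _ ((cent_anti h4).trans (cent_le_norm _))) h3
  have k2 : ∀ X Y, Ln q A X → Ln q A Y → P ⊓ 𝓒(X) = ⊥ → Y ≠ X → R ⊓ 𝓝(P) ⊓ 𝓒(Y) = ⊥ :=
    fun X Y hX hY h e => by
      have hU := hR.inf (c.nX hY)
      have hn := c.nil_sup hX t.ivP hU (inf_le_left.trans inf_le_right) (t.sP.pi.isSolvable t.hp)
        (c.solv_cent hY hU.1 inf_le_right) h (c.two hY hX e hU.1 inf_le_right)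
      exact BG.eq_bot_mono (le_inf (inf_le_left.trans inf_le_left) (cent_of_nil hn le_sup_left
        le_sup_right (hpi.inf_left _) (t.sP.pi.ne t.ne))) (c.cent_bot t)
  obtain ⟨X, hX, h3⟩ : ∃ X, Ln q A X ∧ ¬ R ⊓ 𝓒(X) ≤ 𝓝(P) := by
    by_contra h
    push Not at h
    exact t.not_norm (c.gen t.symm.ivP h)
  refine c.not_cent t.hr t.sR t.nR t.symm.ne_bot hX (c.gen t.symm.ivP fun Y hY => ?_)
  by_cases e : Y = X
  · exact e ▸ inf_le_right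
  by_cases h4 : R ⊓ 𝓒(Y) ≤ 𝓝(P)
  · exact (le_inf (le_inf inf_le_left h4) inf_le_right).trans
      ((k2 X Y hX hY (k1 X hX h3) e).le.trans bot_le)
  · refine (h0 (eq_bot_iff.2 (c.gen hR fun Z hZ => ?_))).elim
    by_cases e' : Z = X
    · exact (k2 Y Z hY hZ (k1 Y hY h4) (e' ▸ Ne.symm e)).le
    · exact (k2 X Z hX hZ (k1 X hX h3) e').le

theorem not_tw (t : Tw π p r A K P R) (hp2 : p ≠ 2) : False := by
  have k : ∀ Y, Ln q A Y → P ⊓ 𝓒(Y) ≠ ⊥ → R ⊓ 𝓒(Y) = ⊥ := fun Y hY h => by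
    have hU := t.ivP.inf (c.nX hY)
    rcases c.dich t hU h (c.solv_cent hY hU.1 inf_le_right) with h1 | h1
    · exact BG.eq_bot_mono (le_inf inf_le_left (le_trans (le_inf inf_le_left (norm_of_cent
        (cent_of_comm (c.ab Y hY) (inf_le_inf_right _ t.sR.le) (inf_le_inf_right _ t.sP.le)))) h1))
        (c.norm_bot t)
    · exact (h (BG.eq_bot_mono (le_inf inf_le_left (le_trans (le_inf inf_le_left le_normalizer) h1))
        (c.norm_bot t.symm))).elim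
  obtain ⟨X, hX, h1⟩ : ∃ X, Ln q A X ∧ P ⊓ 𝓒(X) = ⊥ := by
    by_contra h
    push Not at h
    exact t.symm.ne_bot (eq_bot_iff.2 (c.gen t.symm.ivP fun Y hY => (k Y hY (h Y hY)).le))
  refine c.not_cent t.hr t.sR t.nR t.symm.ne_bot hX (c.gen t.symm.ivP fun Y hY => ?_)
  by_cases e : Y = X
  · exact e ▸ inf_le_right
  · exact (k Y hY (c.supp t.hp hp2 t.sP t.nP t.ne_bot hX hY (Ne.symm e) h1)).le.trans bot_le

theorem perm (hp : p.Prime) (hr : r.Prime) (hP : Syl p P K) (hR : Syl r R K) (nP : A ≤ 𝓝(P))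
    (nR : A ≤ 𝓝(R)) (h : p ≠ r) {x : G} (hx : x ∈ P ⊔ R) : ∃ a ∈ P, ∃ b ∈ R, a * b = x := by
  obtain ⟨H, h1, h2, h3, h4⟩ : ∃ H, Iv A K H ∧ IsPi {p, r} H ∧ P ≤ H ∧ R ≤ H := by
    by_contra hc
    push Not at hc
    have t : Tw {p, r} p r A K P R := ⟨hp, hr, h, fun s => by simp, hP, hR, nP, nR, hc⟩
    by_cases e : p = 2
    · exact c.not_tw t.symm (e ▸ h.symm)
    · exact c.not_tw t e
  refine (hP.of_le h3 h1.1).exists_mul ((hR.of_le h4 h1.1).congr fun s hs hd => ?_) (sup_le h3 h4 hx)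
  rcases h2 s hs hd with rfl | rfl
  · simpa using h
  · simpa using h.symm

theorem elim : False := by
  have h1 : ∀ p : Nat.Primes, ∃ S : Sylow p K, A ≤ 𝓝((S : Subgroup K).map K.subtype) := fun p => by
    obtain ⟨P, h1, h2⟩ := coprime_Sylow_exists p.2 c.norm c.cop (Or.inl c.solvA)
    obtain ⟨S, rfl⟩ := h1.exists_sylow p.2
    exact ⟨S, h2⟩
  choose S hS using h1
  have h2 : ∀ p r : Nat.Primes, (S p : Set K) * (S r : Set K) ⊆ (S r : Set K) * (S p : Set K) := by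
    rintro p r _ ⟨a, ha, b, hb, rfl⟩
    by_cases e : p = r
    · subst e
      exact ⟨a, ha, b, hb, rfl⟩
    obtain ⟨_, ⟨x, hx, rfl⟩, _, ⟨y, hy, rfl⟩, h⟩ := c.perm r.2 p.2 (syl_map r.2 (S r))
      (syl_map p.2 (S p)) (hS r) (hS p) (fun h => e (Subtype.ext h.symm))
      (mul_mem (mem_sup_right ⟨a, ha, rfl⟩) (mem_sup_left ⟨b, hb, rfl⟩))
    exact ⟨x, hx, y, hy, Subtype.ext h⟩
  exact c.ns (Cfsg.Agent.S0021.result S fun p r => (h2 p r).antisymm (h2 r p))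

end Cx

universe u

theorem solv_of_ab (hq : q.Prime) (n : ℕ) : ∀ {G : Type u} [Group G] [Finite G] {A K : Subgroup G},
    ♯K = n → El q 2 A → A ≤ 𝓝(K) → (♯K).Coprime ♯A →
    (∀ X, Ln q A X → IsMulCommutative (K ⊓ 𝓒(X) : Subgroup G)) → Group.IsSolvable K := by
  induction n using Nat.strong_induction_on with
  | _ n ih =>
  intro G _ _ A K hn el nm cop ab
  by_contra ns
  have sv : ∀ H, H < K → A ≤ 𝓝(H) → Group.IsSolvable H := fun H h1 h2 =>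
    ih _ (hn ▸ card_lt_of_lt h1) rfl el h2 (cop_mono cop h1.le le_rfl) fun X hX =>
      comm_of_le (ab X hX) (inf_le_inf_right _ h1.le)
  have sp : ∀ N, N ≤ K → N ≠ ⊥ → A ≤ 𝓝(N) → K ≤ 𝓝(N) → N = K := fun N h1 h2 h3 h4 => by
    by_contra e
    have hd : A ⊓ N = ⊥ := inf_eq_bot_of_cop (cop_mono cop h1 le_rfl).symm
    refine ns (isSolvable_of_mim (f := qh N) h4
      (by rw [mker_qh]; exact solv_of_le (sv N (lt_of_le_of_ne h1 e) h3) inf_le_right)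
      (ih _ (hn ▸ card_quo_lt_of_le h4 h1 h2) rfl
      (el.quo h3 hd) (norm_quo _ nm) (cop_mim cop _) fun X hX => ?_))
    have hX' : (A ⊓ mpre (qh N) X) /ᵍ N = X := by
      rw [mim_inf_mpre, inf_eq_right.2 hX.1]
    have h5 : ♯(A ⊓ mpre (qh N) X) = q := by
      rw [← hX.2, ← hX', card_quo_of_disjoint (inf_le_left.trans h3)
        (BG.eq_bot_mono (inf_le_inf_right _ inf_le_left) hd), hX']
    rw [← hX', ← cop_quo_cent' (inf_le_left.trans h3) h4 (inf_le_left.trans nm)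
      (cop_mono cop le_rfl inf_le_left) (Or.inl (solv_of_comm (comm_of_le el.comm inf_le_left)))]
    exact isMulCommutative_mim _ (ab _ ⟨inf_le_left, h5⟩)
  refine Cx.elim ⟨hq, el, nm, cop, ?_, ab, sv, sp, ns⟩
  have h1 : K ≤ 𝓒(K ⊓ 𝓒(A)) := coprime_elem_gen_cent hq (k := 0) el nm cop fun X a b =>
    cent_of_comm (ab X ⟨a, b⟩) le_rfl (inf_le_inf_left _ (cent_anti a))
  by_contra h0
  have h2 := sp _ inf_le_left h0 (norm_inf nm (norm_cent le_normalizer)) (norm_of_cent h1)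
  rw [h2] at h1
  exact ns (solv_of_comm (comm_iff_le_cent.2 h1))

end CA.Mart
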