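import Cfsg.Agent.Lib.Solv.SS4
import Cfsg.Agent.S0572

/-! Products of abelian and nilpotent subgroups. -/
set_option autoImplicit false
set_option linter.unusedSectionVars false
namespace CA.BG
open Subgroup Cfsg CA.OQuo CA.H1Prod
open scoped commutatorElement
universe u
variable {G : Type*} [Group G] [Finite G] {π σ τ : Set ℕ}
variable {p q r : ℕ} {x y z g : G} {A B H K L M N P Q R U V W X Y : Subgroup G}

/-- A nilpotent supplement of all normal subgroups. -/
theorem not_dvd_of_sup (hA : Group.IsNilpotent A) (hN : MinNormal N ⊤) (hp : p.Prime)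
    (he : IsPi {p} N) (h : ∀ K : Subgroup G, ⊤ ≤ 𝓝(K) → K ≠ ⊥ → K ⊔ A = ⊤) (h1 : A ≠ ⊤) :
    ¬ p ∣ ♯A := fun hd => by
  obtain ⟨_, -, c, -⟩ := hN.elem (he.isSolvable hp)
  have a := h N hN.2.1 hN.1
  have b := hN.2.2 _ inf_le_left ((core_pi {p} A).meet_cent he (le_top.trans hN.2.1) hN.1)
    (a ▸ sup_le (norm_of_comm c inf_le_left) (norm_inf (le_top.trans hN.2.1)
      (norm_cent (le_norm_core _ _))))
  exact h1 (sup_eq_right.2 (core_le {p} A) ▸ h _ (a ▸ sup_le (norm_of_cent (inf_eq_left.1 b))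
    (le_norm_core _ _)) ((nil_hall_core {p} hA).ne_bot hp rfl hd))

theorem map_mk_eq_top [N.Normal] : A.map (QuotientGroup.mk' N) = ⊤ ↔ N ⊔ A = ⊤ := by
  rw [← QuotientGroup.comap_map_mk', ← top_le_iff, ← top_le_iff, ← map_le_iff_le_comap,
    map_top_of_surjective _ (QuotientGroup.mk'_surjective N)]

theorem nil_prod_normal_aux (n : ℕ) : ∀ {G : Type u} [Group G] [Finite G] {A B : Subgroup G},
    Nat.card G ≤ n → Group.IsNilpotent A → Group.IsNilpotent B → Fac A B → A ≠ ⊤ ∨ B ≠ ⊤ →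
    ∃ N : Subgroup G, N.Normal ∧ N ≠ ⊤ ∧ (A ≤ N ∨ B ≤ N) := by
  induction n with
  | zero => exact fun h => absurd h Nat.card_pos.not_ge
  | succ n ih =>
    intro G _ _ A B hc hA hB h h1
    have key : ∀ A B : Subgroup G, A = ⊤ → Group.IsNilpotent A → B ≠ ⊤ →
        ∃ N : Subgroup G, N.Normal ∧ N ≠ ⊤ ∧ B ≤ N := fun A B a b c => by
      obtain ⟨M, d, e⟩ := exists_coatom_ge c
      exact ⟨M, normal_of_top_le_norm (top_le_iff.2 (d.2 _ ((lt_norm_of_nilpotent (a ▸ b)
        d.lt_top).trans_le inf_le_right))), d.1, e⟩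
    by_cases a : A = ⊤
    · exact (key A B a hA (h1.resolve_left (not_not.2 a))).imp fun N i => ⟨i.1, i.2.1, .inr i.2.2⟩
    by_cases b : B = ⊤
    · exact (key B A b hB a).imp fun N i => ⟨i.1, i.2.1, .inl i.2.2⟩
    by_cases c : ∃ K : Subgroup G, ⊤ ≤ 𝓝(K) ∧ K ≠ ⊥ ∧ (K ⊔ A ≠ ⊤ ∨ K ⊔ B ≠ ⊤)
    · obtain ⟨K, d, e, f⟩ := c
      have := normal_of_top_le_norm d
      obtain ⟨N, i, j, k⟩ := ih (Nat.le_of_lt_succ ((card_quot_lt e).trans_le hc)) (nil_map hA _)
        (nil_map hB _) (h.map_mk K) (f.imp (mt map_mk_eq_top.1) (mt map_mk_eq_top.1))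
      exact ⟨N.comap (QuotientGroup.mk' K), inferInstance, fun l => j (comap_injective
        (QuotientGroup.mk'_surjective K) l), k.imp map_le_iff_le_comap.1 map_le_iff_le_comap.1⟩
    push Not at c
    have := kegel_wielandt hA hB h
    obtain ⟨N, -, hN⟩ := exists_minNormal (le_norm_self ⊤) (lt_top_iff_ne_top.2 a).ne_bot
    obtain ⟨p, hp, he⟩ := hN.elem inferInstance
    have d := isPi_of_elem hp he
    exact absurd ((d.dvd_card hN.1).trans ((card_subgroup_dvd_card N).trans ⟨_, h.card_mul.symm⟩))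
      (hp.not_dvd_mul (not_dvd_of_sup hA hN hp d (fun K i j => (c K i j).1) a)
        (not_dvd_of_sup hB hN hp d (fun K i j => (c K i j).2) b))

theorem ito (hA : IsMulCommutative A) (hB : IsMulCommutative B) (h : FacIn H A B) :
    ⁅⁅H, H⁆, ⁅H, H⁆⁆ = ⊥ := by
  have := congrArg (map H.subtype) (Cfsg.Agent.S0572.result (A.subgroupOf H) (B.subgroupOf H)
    (fac_subgroupOf_iff.2 h))
  rwa [Subgroup.map_bot, derivedSeries_succ, derivedSeries_one, map_commutator,
    map_subtype_commutator] at this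

theorem ito_normal (hA : IsMulCommutative A) (hB : IsMulCommutative B) (h : Fac A B)
    (h0 : (⊤ : Subgroup G) ≠ ⊥) : ∃ N : Subgroup G, ⊤ ≤ 𝓝(N) ∧ N ≠ ⊥ ∧ (N ≤ A ∨ N ≤ B) := by
  have c0 : ∀ A B : Subgroup G, IsMulCommutative A → Fac A B → ∀ a ∈ A, a ∈ 𝓒(B) → a ≠ 1 →
      ∃ N : Subgroup G, ⊤ ≤ 𝓝(N) ∧ N ≠ ⊥ ∧ N ≤ A := fun A B i j a k l m =>
    ⟨zpowers a, j.sup_eq_top ▸ sup_le (norm_of_comm i (zpowers_le.2 k))
      (norm_of_cent (cent_symm (zpowers_le.2 l))), mt zpowers_eq_bot.1 m, zpowers_le.2 k⟩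
  by_contra! hn
  have n1 : ∀ a ∈ A, a ∈ 𝓒(B) → a = 1 := fun a i j => by_contra fun k => by
    obtain ⟨N, l, m, o⟩ := c0 A B hA h a i j k; exact (hn N l m).1 o
  have n2 : ∀ a ∈ B, a ∈ 𝓒(A) → a = 1 := fun a i j => by_contra fun k => by
    obtain ⟨N, l, m, o⟩ := c0 B A hB h.symm a i j k; exact (hn N l m).2 o
  have hD := comm_iff_der_eq_bot.2 (ito hA hB (facIn_top h))
  have nD := (le_norm_self (⊤ : Subgroup G)).trans (norm_der ⊤)
  set D : Subgroup G := ⁅(⊤ : Subgroup G), (⊤ : Subgroup G)⁆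
  have c1 : ∀ A B : Subgroup G, IsMulCommutative A → Fac A B → (∀ a ∈ B, a ∈ 𝓒(A) → a = 1) →
      (∀ N : Subgroup G, ⊤ ≤ 𝓝(N) → N ≠ ⊥ → ¬ N ≤ A) → ∀ a ∈ A, a ∈ 𝓒(D) → a = 1 :=
    fun A B i j k l a m o => by_contra fun q => l 𝓩(A ⊔ D) ((norm_of_der_le le_sup_right
      le_top).trans (norm_center _)) (ne_bot_of_mem (x := a) ⟨mem_sup_left m, cent_sup A D ▸
        ⟨comm_iff_le_cent.1 i m, o⟩⟩ q) fun z hz => by
      obtain ⟨s, t, u, v, rfl⟩ := j z
      rw [k u v ((mul_mem_cancel_left (comm_iff_le_cent.1 i t)).1 (cent_anti le_sup_left hz.2)),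
        mul_one]
      exact t
  have c2 := c1 A B hA h n2 fun N i j => (hn N i j).1
  have c3 := c1 B A hB h.symm n1 fun N i j => (hn N i j).2
  have hD0 : D ≠ ⊥ := fun e => by
    have i : ∀ A : Subgroup G, (∀ a ∈ A, a ∈ 𝓒(D) → a = 1) → A = ⊥ := fun A j =>
      eq_bot_iff.2 fun a k => j a k (cent_symm (e.le.trans bot_le) (mem_top a))
    exact h0 (by rw [← h.sup_eq_top, i A c2, i B c3, sup_bot_eq])
  obtain ⟨p, hp, hd⟩ := exists_prime_dvd_card hD0
  obtain ⟨a, b⟩ := fac_core h (nil_of_comm hA) (nil_of_comm hB) hp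
  have nV := norm_core {p} nD
  have c := b.le_of_norm' (core_pi {p} D) le_top (le_top.trans nV)
  obtain ⟨z, ⟨d, e⟩, f⟩ := exists_ne_one (b.pi.meet_cent (core_pi {p} D) (le_top.trans nV)
    ((nil_hall_core {p} (nil_of_comm hD)).ne_bot hp rfl hd))
  obtain ⟨s, i, t, j, rfl⟩ := a.mem_sup.1 (c d)
  have k : s ∈ 𝓒(𝓞({p}, A) ⊔ 𝓞({p}, B)) := (cent_sup _ _).ge ⟨cent_of_comm hA (core_le _ _)
    (core_le _ _) i, (mul_mem_cancel_right (cent_of_comm hB (core_le _ _) (core_le _ _) j)).1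
      (cent_anti le_sup_right e)⟩
  have l : ⁅zpowers s, ⊤⁆ ≤ 𝓞({p}, D) := by
    refine comm_le_of_quo_cent (le_top.trans nV) nV (cent_symm ?_)
    rw [← h.sup_eq_top, quo_sup (le_top.trans nV) (le_top.trans nV)]
    refine sup_le (cent_quo _ (cent_of_comm hA le_rfl (zpowers_le.2 (core_le _ _ i)))) (cent_symm ?_)
    rw [mim_zpowers _ (nV (mem_top s)), zpowers_le]
    refine (mul_mem_cancel_right (cent_quo _ (cent_of_comm hB (core_le _ _) le_rfl)
      (mel_mem_mim _ j))).1 ?_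
    rw [← mel_mul _ (nV (mem_top s)) (nV (mem_top t)), (mel_eq_one_iff (nV (mem_top _))).2
      ((mker_qh _).ge d)]
    exact one_mem _
  have m : s ∈ 𝓒(D) := by
    rw [← nil_core_sup {p} (nil_of_comm hD), cent_sup]
    exact ⟨cent_anti c k, cent_of_comm_le_disjoint ((comm_mono le_rfl le_top).trans l)
      (le_top.trans (norm_core _ nD)) ((core_pi _ _).inf_eq_bot' (core_pi _ _)) (mem_zpowers s)⟩
  obtain rfl := c2 s (core_le _ _ i) m
  rw [one_mul] at d f
  exact f (c3 t (core_le _ _ j) (comm_iff_le_cent.1 hD (core_le _ _ d)))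

theorem comm_map {G' : Type*} [Group G'] (h : IsMulCommutative A) (f : G →* G') :
    IsMulCommutative (A.map f) := by
  rw [comm_iff_der_eq_bot] at h ⊢; rw [← map_commutator, h, Subgroup.map_bot]

theorem eq_top_of_sup_der_aux (n : ℕ) : ∀ {G : Type u} [Group G] [Finite G] {A B : Subgroup G},
    Nat.card G ≤ n → IsMulCommutative A → Group.IsNilpotent B → Fac A B → A ⊔ ⁅B, B⁆ = ⊤ →
    A = ⊤ := by
  induction n with
  | zero => exact fun h => absurd h Nat.card_pos.not_ge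
  | succ n ih =>
    intro G _ _ A B hc hA hB h h1
    by_contra a
    have c : ∀ K : Subgroup G, ⊤ ≤ 𝓝(K) → K ≠ ⊥ → K ⊔ A = ⊤ := fun K d e => by
      have := normal_of_top_le_norm d
      exact map_mk_eq_top.1 (ih (Nat.le_of_lt_succ ((card_quot_lt e).trans_le hc)) (comm_map hA _)
        (nil_map hB _) (h.map_mk K) (by rw [← map_commutator, ← Subgroup.map_sup, h1,
          map_top_of_surjective _ (QuotientGroup.mk'_surjective K)]))
    have := kegel_wielandt (nil_of_comm hA) hB h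
    obtain ⟨N, -, hN⟩ := exists_minNormal (le_norm_self ⊤) (lt_top_iff_ne_top.2 a).ne_bot
    obtain ⟨p, hp, he⟩ := hN.elem inferInstance
    have d := isPi_of_elem hp he
    have e := (isPi_compl_iff hp).2 (not_dvd_of_sup (nil_of_comm hA) hN hp d c a)
    have f : SDProd N A ⊤ := ⟨le_top.trans hN.2.1, d.inf_eq_bot e, c N hN.2.1 hN.1⟩
    have i : ⁅B, B⁆ = ⊥ := by
      rw [← nil_core_sup {p} hB, der_sup_cent (cent_symm (core_cent_core _ _)),
        comm_iff_der_eq_bot.1 (comm_of_le he.1 ((f.hall_left d e).le_of_normal f.normal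
          (core_pi _ _) le_top)), bot_sup_eq]
      exact eq_bot_mono (le_inf ((der_mono le_top).trans (f.der_le_of_comm hA)) (der_le _))
        (d.inf_eq_bot (core_pi _ _))
    exact a (by simpa [i] using h1)

theorem der_bound (n : ℕ) : ∀ {G : Type u} [Group G] [Finite G] {A B : Subgroup G},
    IsMulCommutative A → ⁅B, B⁆ ≤ 𝓒(B) → Fac A B → (♯⁅B, B⁆).primeFactorsList.length ≤ n →
    derivedSeries G (2 * (1 + n)) = ⊥ := by
  have base : ∀ {G : Type u} [Group G] [Finite G] {A B : Subgroup G} (n : ℕ),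
      IsMulCommutative A → ⁅B, B⁆ = ⊥ → Fac A B → derivedSeries G (2 * (1 + n)) = ⊥ :=
    fun n a b c => by
      have := comm_iff_der_eq_bot.2 b
      exact eq_bot_mono (derivedSeries_antitone _ (by omega)) (Cfsg.Agent.S0572.result _ _ c)
  induction n with
  | zero =>
    intro G _ _ A B hA hB h h1
    refine base 0 hA (card_eq_one.1 ?_) h
    rcases (Nat.primeFactorsList_eq_nil _).1 (List.length_eq_zero_iff.1 (Nat.le_zero.1 h1)) with i | i
    · exact absurd i (card_ne_zero' _)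
    · exact i
  | succ n ih =>
    intro G _ _ A B hA hB h h1
    by_cases h0 : ⁅B, B⁆ = ⊥
    · exact base _ hA h0 h
    obtain ⟨H, -, ⟨a, b⟩, c⟩ := exists_minimal_le (H := (⊤ : Subgroup G))
      (P := fun H => A ≤ H ∧ H ⊓ ⁅B, B⁆ ≠ ⊥) ⟨le_top, by rwa [top_inf_eq]⟩
    have f := facIn_left h a
    have d : IsMulCommutative (H ⊓ B : Subgroup G) := comm_iff_der_eq_bot.2 (by_contra fun i => by
      have j := c (A ⊔ ⁅H ⊓ B, H ⊓ B⁆) ⟨le_sup_left, ne_bot_mono (le_inf le_sup_right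
        (der_mono inf_le_right)) i⟩ (sup_le a ((der_le _).trans inf_le_left))
      have k := eq_top_of_sup_der_aux _ le_rfl (inferInstance : IsMulCommutative (A.subgroupOf H))
        (nil_subgroupOf (classLE_two_iff.2 hB).nil H) (fac_subgroupOf_iff.2 f)
        (map_injective H.subtype_injective (by
          rw [Subgroup.map_sup, map_commutator, subgroupOf_map_subtype, subgroupOf_map_subtype,
            inf_eq_left.2 a, inf_comm B, j, ← MonoidHom.range_eq_map, range_subtype]))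
      exact i (comm_iff_der_eq_bot.1 (comm_of_le hA (inf_le_left.trans (subgroupOf_eq_top.1 k)))))
    have e := ito hA d (H := H) fun g hg => by simpa only [← inf_assoc, inf_idem] using f g hg
    have i := (h.symm.mono le_rfl a).le_normalCore (inf_le_left : H ⊓ ⁅B, B⁆ ≤ H)
      (norm_of_cent (cent_symm (inf_le_right.trans hB)))
    set N := H.normalCore
    have j := ih (comm_map hA (QuotientGroup.mk' N)) (by
      rw [← map_commutator]; exact (map_mono hB).trans (map_centralizer_le_centralizer_image _ _))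
      (h.map_mk N) (by
        have k : ♯(⁅B, B⁆.map (QuotientGroup.mk' N)) * ♯(N ⊓ ⁅B, B⁆) = ♯⁅B, B⁆ := by
          rw [← card_inf_mul_relIndex N ⁅B, B⁆, mul_comm, ← relIndex_ker, QuotientGroup.ker_mk']
        have l := (Nat.perm_primeFactorsList_mul (card_ne_zero' (⁅B, B⁆.map (QuotientGroup.mk' N)))
          (card_ne_zero' (N ⊓ ⁅B, B⁆))).length_eq
        have m : (♯(N ⊓ ⁅B, B⁆)).primeFactorsList.length ≠ 0 := fun o => by
          rcases (Nat.primeFactorsList_eq_nil _).1 (List.length_eq_zero_iff.1 o) with o | o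
          · exact card_ne_zero' _ o
          · exact b (eq_bot_mono (le_inf i inf_le_right) (card_eq_one.1 o))
        rw [k, List.length_append] at l
        rw [← map_commutator]; omega)
    rw [← map_derivedSeries_eq (QuotientGroup.mk'_surjective N), Subgroup.map_eq_bot_iff,
      QuotientGroup.ker_mk'] at j
    exact eq_bot_mono (der_mono (der_mono (j.trans (normalCore_le H)))) e

end CA.BG
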